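import Cfsg.Agent.H82.SmallDeg.Small

/-!
The inequalities for the cyclotomic numbers have no solution when `t ≤ e + 1`.
-/

set_option autoImplicit false
set_option maxHeartbeats 1000000

namespace Cfsg.Agent.H82.SmallDeg

open Finset

section Real

variable {d s0 s σ S : ℝ}

/-- The inequality for one value. -/
def Good (d s0 s σ X : ℝ) : Prop := |s - X / d| ≤ s0 + σ * X

theorem Good.between {X₁ X₂ X : ℝ} (h₁ : Good d s0 s σ X₁) (h₂ : Good d s0 s σ X₂)
    (hl : X₁ ≤ X) (hr : X ≤ X₂) : Good d s0 s σ X := by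
  rw [Good, abs_le] at *
  have key : ∀ a b : ℝ, 0 ≤ a + b * X₁ → 0 ≤ a + b * X₂ → 0 ≤ a + b * X := by
    intro a b u v
    rcases le_total 0 b with hb | hb
    · nlinarith [mul_le_mul_of_nonneg_left hl hb]
    · nlinarith [mul_le_mul_of_nonpos_left hr hb]
  constructor
  · have := key (s0 + s) (σ - 1 / d) (by linear_combination h₁.1) (by linear_combination h₂.1)
    linear_combination this
  · have := key (s0 - s) (σ + 1 / d) (by linear_combination h₁.2) (by linear_combination h₂.2)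
    linear_combination this

theorem Good.neg_bound (hd : 0 < d) (hS : s0 + |s| ≤ S) {X : ℝ} (h : Good d s0 s σ X) :
    -X / d ≤ S + σ * X := by
  have h1 := abs_le.1 (show |s - X / d| ≤ s0 + σ * X from h)
  have h2 := neg_abs_le s
  rw [neg_div]
  linarith

theorem Good.pos_bound (hd : 0 < d) (hS : s0 + |s| ≤ S) {X : ℝ} (h : Good d s0 s σ X) :
    X / d ≤ S + σ * X := by
  have h1 := abs_le.1 (show |s - X / d| ≤ s0 + σ * X from h)
  have h2 := le_abs_self s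
  linarith

/-- A value far below and a value far above exclude each other. -/
theorem false_of_far (hd : 0 < d) (hS : d * (s0 + |s|) ≤ S) {X₁ X₂ : ℝ}
    (h₁ : Good d s0 s σ X₁) (h₂ : Good d s0 s σ X₂) (hl : S < -X₁) (hr : S < X₂) (hS0 : 0 ≤ S) :
    False := by
  have hS' : s0 + |s| ≤ S / d := by rw [le_div_iff₀ hd]; linarith
  have a := h₁.neg_bound hd hS'
  have b := h₂.pos_bound hd hS'
  have a' : S / d < -X₁ / d := (div_lt_div_iff_of_pos_right hd).2 hl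
  have b' : S / d < X₂ / d := (div_lt_div_iff_of_pos_right hd).2 hr
  rcases le_total 0 σ with h | h
  · nlinarith [mul_nonpos_of_nonneg_of_nonpos h (show X₁ ≤ 0 by linarith)]
  · nlinarith [mul_nonpos_of_nonpos_of_nonneg h (show 0 ≤ X₂ by linarith)]

end Real

section Cases

variable {p e t : ℕ} [Fact p.Prime] {s0 s σ : ℝ}

theorem dS_le (hp : e * t + 1 = p) (he : 3 ≤ e) (ht : 4 ≤ t)
    (hs0 : s0 ≤ 1 + ((e : ℝ) - 1) / ((p : ℝ) + 1)) (hs : |s| ≤ (e : ℝ) / ((p : ℝ) - 1)) :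
    (t : ℝ) * (((p : ℝ) - e) * (s0 + |s|)) ≤ t * ((p : ℝ) + e) - 2 * e + 3 ∧
      ((p : ℝ) - e) * (s0 + |s|) ≤ (p : ℝ) + e ∧ ((p : ℝ) - e) * s0 ≤ (p : ℝ) - 1 := by
  have hpR : (p : ℝ) = e * t + 1 := by exact_mod_cast hp.symm
  have heR : (3 : ℝ) ≤ e := by exact_mod_cast he
  have htR : (4 : ℝ) ≤ t := by exact_mod_cast ht
  have hd : 0 < (p : ℝ) - e := by rw [hpR]; nlinarith
  have hp1 : 0 < (p : ℝ) - 1 := by rw [hpR]; nlinarith
  have h1 : ((e : ℝ) - 1) / ((p : ℝ) + 1) ≤ ((e : ℝ) - 1) / ((p : ℝ) - 1) :=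
    div_le_div_of_nonneg_left (by linarith) hp1 (by linarith)
  have h2 : s0 + |s| ≤ 1 + (2 * (e : ℝ) - 1) / ((p : ℝ) - 1) := by
    rw [show (2 * (e : ℝ) - 1) / ((p : ℝ) - 1) =
      ((e : ℝ) - 1) / ((p : ℝ) - 1) + (e : ℝ) / ((p : ℝ) - 1) by rw [← add_div]; ring_nf]
    linarith
  have h3 := mul_le_mul_of_nonneg_left h2 hd.le
  have e1 : (t : ℝ) * (((p : ℝ) - e) * (1 + (2 * (e : ℝ) - 1) / ((p : ℝ) - 1))) ≤
      t * ((p : ℝ) + e) - 2 * e + 3 := by
    have e2 : (p : ℝ) - 1 = e * t := by rw [hpR]; ring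
    rw [e2, hpR]
    field_simp
    nlinarith
  refine ⟨le_trans (mul_le_mul_of_nonneg_left h3 (by linarith)) e1, ?_, ?_⟩
  · have := le_trans (mul_le_mul_of_nonneg_left h3 (show (0 : ℝ) ≤ t by linarith)) e1
    nlinarith
  · have h4 := mul_le_mul_of_nonneg_left hs0 hd.le
    refine h4.trans ?_
    rw [show (1 : ℝ) + ((e : ℝ) - 1) / ((p : ℝ) + 1) = ((p : ℝ) + e) / ((p : ℝ) + 1) by
      field_simp; ring, mul_div_assoc', div_le_iff₀ (by linarith)]
    nlinarith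

/-- The data: the inequality at every pair. -/
def AllGood (p : ℕ) [Fact p.Prime] (e : ℕ) (s0 s σ : ℝ) : Prop :=
  ∀ b c : ZMod p, b ≠ 0 → c ≠ 0 → Good ((p : ℝ) - e) s0 s σ (xc p e b c)

theorem xc_le {b c : ZMod p} {k : ℕ} (h : cyc p e 1 b c ≤ k) :
    xc p e b c ≤ (p : ℝ) * k - (e : ℝ) ^ 2 := by
  unfold xc
  gcongr

theorem le_xc {b c : ZMod p} {k : ℕ} (h : k ≤ cyc p e 1 b c) :
    (p : ℝ) * k - (e : ℝ) ^ 2 ≤ xc p e b c := by
  unfold xc
  gcongr

/-- The cases next to the diagonal, `e = t + 1`. -/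
theorem false_succ (hp : e * t + 1 = p) (he : e = t + 1) (ht : 4 ≤ t)
    (hs0 : s0 ≤ 1 + ((e : ℝ) - 1) / ((p : ℝ) + 1)) (hs : |s| ≤ (e : ℝ) / ((p : ℝ) - 1))
    (hall : AllGood p e s0 s σ) : False := by
  obtain ⟨b, c, hb, hc, hlo⟩ := exists_cyc_lt hp (by omega) (by omega) one_pos (by omega)
  obtain ⟨b', c', hb', hc', hhi⟩ := exists_cyc_gt (k := 1) hp (by omega) (by omega) (by omega)
  have g0 := hall b c hb hc
  have g2 := hall b' c' hb' hc'
  have htR : (4 : ℝ) ≤ t := by exact_mod_cast ht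
  have heR : (e : ℝ) = t + 1 := by exact_mod_cast he
  have hpR : (p : ℝ) = (e : ℝ) ^ 2 - e + 1 := by
    rw [show (p : ℝ) = e * t + 1 by exact_mod_cast hp.symm, show (t : ℝ) = e - 1 by linarith]
    ring
  have hx0 : xc p e b c = -(e : ℝ) ^ 2 := by
    rw [xc, show cyc p e 1 b c = 0 by omega]; simp
  have hx2 := le_xc (k := 2) hhi
  push_cast at hx2
  rw [hx0] at g0
  have g2' := g0.between g2 (X := (e : ℝ) ^ 2 - 2 * e + 2) (by nlinarith) (by
    rw [hpR] at hx2; linarith)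
  set d := (p : ℝ) - e with hd
  have hd1 : d = ((e : ℝ) - 1) ^ 2 := by rw [hd, hpR]; ring
  have hdpos : 0 < d := by rw [hd1]; nlinarith
  rw [Good, abs_le] at g0 g2'
  set X2 := (e : ℝ) ^ 2 - 2 * e + 2 with hX2
  have hX2p : 0 ≤ X2 := by rw [hX2]; nlinarith
  have i1 := mul_le_mul_of_nonneg_left g2'.1 (show (0 : ℝ) ≤ (e : ℝ) ^ 2 by positivity)
  have i2 := mul_le_mul_of_nonneg_left g0.2 hX2p
  have i3 : 2 * ((e : ℝ) ^ 2 * X2 / d) ≤ s0 * ((e : ℝ) ^ 2 + X2) + s * ((e : ℝ) ^ 2 - X2) := by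
    linear_combination i1 + i2
  have hps : (e : ℝ) ^ 2 + X2 = 2 * p := by rw [hX2, hpR]; ring
  have hp1 : (0 : ℝ) < (p : ℝ) + 1 := by positivity
  have j1 : s0 * p ≤ (p : ℝ) + e - 1 := by
    refine (mul_le_mul_of_nonneg_right hs0 (Nat.cast_nonneg p)).trans ?_
    rw [show (1 : ℝ) + ((e : ℝ) - 1) / ((p : ℝ) + 1) = ((p : ℝ) + e) / ((p : ℝ) + 1) by
      field_simp; ring, div_mul_eq_mul_div, div_le_iff₀ hp1]
    nlinarith
  have j2 : s * ((e : ℝ) ^ 2 - X2) ≤ 2 := by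
    refine (mul_le_mul_of_nonneg_right (le_trans (le_abs_self s) hs) (by rw [hX2]; linarith)).trans
      (le_of_eq ?_)
    have hne : (e : ℝ) ≠ 0 := by linarith
    have hne1 : (e : ℝ) - 1 ≠ 0 := by linarith
    rw [hX2, hpR, show (e : ℝ) ^ 2 - e + 1 - 1 = e * ((e : ℝ) - 1) by ring]
    field_simp
    ring
  rw [hps] at i3
  have j3 : (e : ℝ) ^ 2 * X2 / d ≤ (e : ℝ) ^ 2 + 1 := by
    have : (e : ℝ) ^ 2 + 1 = (p : ℝ) + e - 1 + 1 := by rw [hpR]; ring
    linarith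
  rw [div_le_iff₀ hdpos, hd1, hX2] at j3
  nlinarith

/-- The cases next to the diagonal, `e + 1 = t`. -/
theorem false_pred (hp : e * t + 1 = p) (he : e + 1 = t) (h3 : 3 ≤ e)
    (hs0 : s0 ≤ 1 + ((e : ℝ) - 1) / ((p : ℝ) + 1)) (hs : |s| ≤ (e : ℝ) / ((p : ℝ) - 1))
    (href : s0 ≤ 1 + ((e : ℝ) - 2) / ((p : ℝ) + 1) ∨
      σ ≤ 1 / (((e : ℝ) - 1) * ((p : ℝ) + 1) + 1))
    (hall : AllGood p e s0 s σ) : False := by
  obtain ⟨b, c, hb, hc, hlo⟩ := exists_cyc_lt hp (by omega) (by omega) one_pos (by omega)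
  obtain ⟨b', c', hb', hc', hhi⟩ := exists_cyc_gt (k := 1) hp (by omega) (by omega) (by omega)
  have g0 := hall b c hb hc
  have g2 := hall b' c' hb' hc'
  have heR : (3 : ℝ) ≤ e := by exact_mod_cast h3
  have hpR : (p : ℝ) = (e : ℝ) ^ 2 + e + 1 := by
    rw [show (p : ℝ) = e * t + 1 by exact_mod_cast hp.symm,
      show (t : ℝ) = e + 1 by exact_mod_cast he.symm]
    ring
  have hx0 : xc p e b c = -(e : ℝ) ^ 2 := by
    rw [xc, show cyc p e 1 b c = 0 by omega]; simp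
  have hx2 := le_xc (k := 2) hhi
  push_cast at hx2
  rw [hx0] at g0
  have g2' := g0.between g2 (X := (e : ℝ) ^ 2 + 2 * e + 2) (by nlinarith) (by
    rw [hpR] at hx2; linarith)
  set d := (p : ℝ) - e with hd
  have hd1 : d = (e : ℝ) ^ 2 + 1 := by rw [hd, hpR]; ring
  have hdpos : 0 < d := by rw [hd1]; positivity
  rw [Good, abs_le] at g0 g2'
  set X2 := (e : ℝ) ^ 2 + 2 * e + 2 with hX2
  have hX2p : 0 ≤ X2 := by rw [hX2]; positivity
  rcases href with hr | hσ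
  · have i1 := mul_le_mul_of_nonneg_left g2'.1 (show (0 : ℝ) ≤ (e : ℝ) ^ 2 by positivity)
    have i2 := mul_le_mul_of_nonneg_left g0.2 hX2p
    have i3 : 2 * ((e : ℝ) ^ 2 * X2 / d) ≤ s0 * ((e : ℝ) ^ 2 + X2) + (-s) * (X2 - (e : ℝ) ^ 2) := by
      linear_combination i1 + i2
    have hps : (e : ℝ) ^ 2 + X2 = 2 * p + (1 : ℝ) * 0 := by rw [hX2, hpR]; ring
    have hp1 : (0 : ℝ) < (p : ℝ) + 1 := by positivity
    have j1 : s0 * p ≤ (p : ℝ) + e - 2 := by
      refine (mul_le_mul_of_nonneg_right hr (Nat.cast_nonneg p)).trans ?_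
      rw [show (1 : ℝ) + ((e : ℝ) - 2) / ((p : ℝ) + 1) = ((p : ℝ) + e - 1) / ((p : ℝ) + 1) by
        field_simp; ring, div_mul_eq_mul_div, div_le_iff₀ hp1]
      nlinarith
    have j2 : (-s) * (X2 - (e : ℝ) ^ 2) ≤ 2 := by
      refine (mul_le_mul_of_nonneg_right (le_trans (neg_le_abs s) hs) (by rw [hX2]; linarith)).trans
        (le_of_eq ?_)
      have hne : (e : ℝ) ≠ 0 := by linarith
      have hne1 : (e : ℝ) + 1 ≠ 0 := by linarith
      rw [hX2, hpR, show (e : ℝ) ^ 2 + e + 1 - 1 = e * ((e : ℝ) + 1) by ring]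
      field_simp
      ring
    rw [hps] at i3
    have j3 : (e : ℝ) ^ 2 * X2 / d ≤ (e : ℝ) ^ 2 + 2 * e := by
      have : (e : ℝ) ^ 2 + 2 * e = (p : ℝ) + e - 2 + 1 := by rw [hpR]; ring
      linarith
    rw [div_le_iff₀ hdpos, hd1, hX2] at j3
    nlinarith
  · have i3 : 2 * ((p : ℝ) / d) ≤ 2 * s0 + σ * (2 * ((e : ℝ) + 1)) := by
      have e1 : 2 * (p : ℝ) = X2 - -(e : ℝ) ^ 2 := by rw [hX2, hpR]; ring
      rw [← mul_div_assoc, e1, sub_div]
      linear_combination g2'.1 + g0.2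
    have hp1 : (0 : ℝ) < (p : ℝ) + 1 := by positivity
    have hW : (0 : ℝ) < ((e : ℝ) - 1) * ((p : ℝ) + 1) + 1 := by
      have : (0 : ℝ) ≤ ((e : ℝ) - 1) * ((p : ℝ) + 1) := mul_nonneg (by linarith) hp1.le
      linarith
    have j1 : σ * ((e : ℝ) + 1) ≤ 2 / ((p : ℝ) + 1) := by
      refine (mul_le_mul_of_nonneg_right hσ (by linarith)).trans ?_
      rw [div_mul_eq_mul_div, one_mul, div_le_div_iff₀ hW hp1]
      nlinarith
    have j2 : (p : ℝ) / d ≤ ((p : ℝ) + e + 2) / ((p : ℝ) + 1) := by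
      rw [show ((p : ℝ) + e + 2) / ((p : ℝ) + 1) =
        (1 + ((e : ℝ) - 1) / ((p : ℝ) + 1)) + 2 / ((p : ℝ) + 1) by field_simp; ring]
      linarith
    rw [div_le_div_iff₀ hdpos hp1, hd, hpR] at j2
    nlinarith

/-- The second moment against a small slope. -/
theorem false_of_moment (hp : e * t + 1 = p) (he : 3 ≤ e) (ht : 4 ≤ t)
    (hs0 : s0 ≤ 1 + ((e : ℝ) - 1) / ((p : ℝ) + 1)) (hs : |s| ≤ (e : ℝ) / ((p : ℝ) - 1))
    (hall : AllGood p e s0 s σ) (hz : 0 ≤ s0) {c : ℝ} (hc1 : c ≤ 1)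
    (hρ : |σ| * ((p : ℝ) - e) ≤ c)
    (hbig : (t : ℝ) ^ 4 * e + 2 * ((t : ℝ) + 2) <
      t * (t - 1) * (t - 2) * (1 - c ^ 2) * (e : ℝ) ^ 2) : False := by
  obtain ⟨-, hS, hs0d⟩ := dS_le hp he ht hs0 hs
  set d := (p : ℝ) - e with hd
  have heR : (3 : ℝ) ≤ e := by exact_mod_cast he
  have htR : (4 : ℝ) ≤ t := by exact_mod_cast ht
  have hpR : (p : ℝ) = e * t + 1 := by exact_mod_cast hp.symm
  have hdpos : 0 < d := by rw [hd, hpR]; nlinarith
  have hc0 : 0 ≤ c := le_trans (mul_nonneg (abs_nonneg σ) hdpos.le) hρ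
  have hterm : ∀ q ∈ pairs p, (d * s - xc p e q.1 q.2) ^ 2 ≤
      (d * s0 + (σ * d) * xc p e q.1 q.2) ^ 2 := by
    intro q hq
    have h := hall q.1 q.2 (mem_pairs.1 hq).1 (mem_pairs.1 hq).2
    have h' := abs_le.1 (show |s - xc p e q.1 q.2 / d| ≤ _ from h)
    have e1 : d * (s - xc p e q.1 q.2 / d) = d * s - xc p e q.1 q.2 := by
      rw [mul_sub, mul_div_cancel₀ _ hdpos.ne']
    have u1 := mul_le_mul_of_nonneg_left h'.1 hdpos.le
    have u2 := mul_le_mul_of_nonneg_left h'.2 hdpos.le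
    rw [e1] at u1 u2
    exact sq_le_sq' (by linarith) (by linarith)
  have hsum := Finset.sum_le_sum hterm
  have e1 : ∀ a b : ℝ, ∑ q ∈ pairs p, (a + b * xc p e q.1 q.2) ^ 2 =
      ((pairs p).card : ℝ) * a ^ 2 + 2 * a * b * ∑ q ∈ pairs p, xc p e q.1 q.2 +
        b ^ 2 * ∑ q ∈ pairs p, xc p e q.1 q.2 ^ 2 := fun a b => by
    rw [Finset.mul_sum, Finset.mul_sum, ← nsmul_eq_mul, ← Finset.sum_const, ← sum_add_distrib,
      ← sum_add_distrib]
    exact sum_congr rfl fun q _ => by ring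
  have e2 := e1 (d * s) (-1)
  simp only [neg_one_mul, ← sub_eq_add_neg] at e2
  rw [e1, e2, sum_xc hp (by omega), sum_xc_sq hp (by omega), card_pairs] at hsum
  push_cast [Nat.cast_sub (show 1 ≤ p by omega)] at hsum
  set A := (p : ℝ) ^ 3 * (e : ℝ) ^ 2 - 3 * (p : ℝ) ^ 2 * (e : ℝ) ^ 3 + 2 * p * (e : ℝ) ^ 4 +
    (e : ℝ) ^ 4 with hA
  have hA1 : (p : ℝ) * (e : ℝ) ^ 2 * d * ((p : ℝ) - 2 * e) ≤ A := by
    rw [hA, hd]; linear_combination (pow_nonneg (show (0 : ℝ) ≤ e by linarith) 4)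
  have hd2 : (e : ℝ) * (t - 1) ≤ d := by rw [hd, hpR]; linarith
  have hp2 : (e : ℝ) * (t - 2) ≤ (p : ℝ) - 2 * e := by rw [hpR]; linarith
  have hp3 : (e : ℝ) * t ≤ p := by rw [hpR]; linarith
  have hA2 : (e : ℝ) ^ 5 * (t * (t - 1) * (t - 2)) ≤ A := by
    refine le_trans ?_ hA1
    have h4 := mul_le_mul (mul_le_mul_of_nonneg_right hp3 (sq_nonneg (e : ℝ))) hd2
      (mul_nonneg (by linarith) (by linarith)) (by positivity)
    have h5 := mul_le_mul h4 hp2 (mul_nonneg (by linarith) (by linarith))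
      (mul_nonneg (by positivity) hdpos.le)
    linear_combination h5
  have hA0 : 0 ≤ A := le_trans (by
    have : (0 : ℝ) ≤ t * (t - 1) * (t - 2) := by
      apply mul_nonneg (mul_nonneg _ _) _ <;> linarith
    positivity) hA2
  have hσ2 : (σ * d) ^ 2 ≤ c ^ 2 := by
    rw [← sq_abs (σ * d), abs_mul, abs_of_pos hdpos]
    exact pow_le_pow_left₀ (mul_nonneg (abs_nonneg _) hdpos.le) hρ 2
  have hlin : -(2 * (d * s) * (-(e : ℝ) ^ 2) * (-1)) + 2 * (d * s0) * (σ * d) * (-(e : ℝ) ^ 2) ≤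
      2 * (e : ℝ) ^ 2 * ((p : ℝ) + e) := by
    have h1 : -(d * s) - d * s0 * (σ * d) ≤ d * (s0 + |s|) := by
      have h2 : -(σ * d) ≤ 1 := by
        have := mul_le_mul_of_nonneg_right (neg_le_abs σ) hdpos.le
        linarith
      have h3 := mul_le_mul_of_nonneg_left h2 (mul_nonneg hdpos.le hz)
      have h4 := mul_le_mul_of_nonneg_left (neg_le_abs s) hdpos.le
      linarith
    have h5 := mul_le_mul_of_nonneg_left (h1.trans hS) (show (0 : ℝ) ≤ 2 * (e : ℝ) ^ 2 by positivity)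
    linear_combination h5
  have hM : ((p : ℝ) - 1) * ((p : ℝ) - 1) * (d * s0) ^ 2 ≤ ((p : ℝ) - 1) ^ 4 := by
    have h1 := pow_le_pow_left₀ (mul_nonneg hdpos.le hz) hs0d 2
    refine (mul_le_mul_of_nonneg_left h1 (mul_self_nonneg _)).trans (le_of_eq ?_)
    ring
  have hmain : A * (1 - c ^ 2) ≤ ((p : ℝ) - 1) ^ 4 + 2 * (e : ℝ) ^ 2 * ((p : ℝ) + e) := by
    have h1 : 0 ≤ ((p : ℝ) - 1) * ((p : ℝ) - 1) * (d * s) ^ 2 := by
      exact mul_nonneg (mul_self_nonneg _) (sq_nonneg _)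
    linarith [mul_le_mul_of_nonneg_left hσ2 hA0]
  rw [hpR] at hmain
  have hc2 : 0 ≤ 1 - c ^ 2 := by nlinarith only [hc0, hc1]
  have u1 := mul_le_mul_of_nonneg_right hA2 hc2
  have u2 := mul_lt_mul_of_pos_left hbig (show (0 : ℝ) < (e : ℝ) ^ 3 by positivity)
  have u3 : (e : ℝ) ^ 2 ≤ (e : ℝ) ^ 3 := pow_le_pow_right₀ (by linarith) (by norm_num)
  linarith

theorem small_case (hp : e * t + 1 = p) (h3 : 3 ≤ e) (ht : 4 ≤ t)
    (hs0 : s0 ≤ 1 + ((e : ℝ) - 1) / ((p : ℝ) + 1)) (hs : |s| ≤ (e : ℝ) / ((p : ℝ) - 1))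
    (hall : AllGood p e s0 s σ) {b c b' c' : ZMod p} {n n' : ℕ} (hb : b ≠ 0) (hc : c ≠ 0)
    (hb' : b' ≠ 0) (hc' : c' ≠ 0) (hn : cyc p e 1 b c = n) (hn' : cyc p e 1 b' c' = n')
    (hlo : (t : ℝ) * ((p : ℝ) + e) - 2 * e + 3 < t * ((e : ℝ) ^ 2 - p * n))
    (hhi : (t : ℝ) * ((p : ℝ) + e) - 2 * e + 3 < t * ((p : ℝ) * n' - (e : ℝ) ^ 2)) : False := by
  obtain ⟨h1, -, -⟩ := dS_le hp h3 ht hs0 hs
  have hpR : (p : ℝ) = e * t + 1 := by exact_mod_cast hp.symm
  have heR : (3 : ℝ) ≤ e := by exact_mod_cast h3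
  have htR : (4 : ℝ) ≤ t := by exact_mod_cast ht
  have hdpos : 0 < (p : ℝ) - e := by rw [hpR]; nlinarith
  have h2 : ((p : ℝ) - e) * (s0 + |s|) ≤ ((t : ℝ) * ((p : ℝ) + e) - 2 * e + 3) / t := by
    rw [le_div_iff₀ (by linarith), mul_comm]
    exact h1
  refine false_of_far hdpos h2 (hall b c hb hc) (hall b' c' hb' hc') ?_ ?_ ?_
  · rw [xc, hn, div_lt_iff₀ (by linarith)]; linarith
  · rw [xc, hn', div_lt_iff₀ (by linarith)]; linarith
  · refine div_nonneg ?_ (by linarith)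
    rw [hpR]; nlinarith

/-- The edge cases with at least two rounds. -/
theorem far_or_moment (hp : e * t + 1 = p) (h3 : 3 ≤ e) (ht : 4 ≤ t)
    (hs0 : s0 ≤ 1 + ((e : ℝ) - 1) / ((p : ℝ) + 1)) (hs : |s| ≤ (e : ℝ) / ((p : ℝ) - 1))
    (hall : AllGood p e s0 s σ) (ht2 : t % 2 = 0) (he2 : 2 * t ≤ e + 1)
    (hQ : (∃ Q, 2 ≤ Q ∧ e + 1 = Q * t) ∨ ∃ Q, 2 ≤ Q ∧ e = Q * t + 1) : False := by
  -- the small cases
  have hpr : Nat.Prime p := Fact.out
  by_cases h4 : t = 4 ∧ e < 20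
  · obtain ⟨rfl, he⟩ := h4
    have he' : 7 ≤ e := by omega
    have hev : e = 7 ∨ e = 9 ∨ e = 11 ∨ e = 13 ∨ e = 15 ∨ e = 17 ∨ e = 19 := by
      rcases hQ with ⟨Q, hQ2, hQ'⟩ | ⟨Q, hQ2, hQ'⟩ <;> omega
    rcases hev with rfl | rfl | rfl | rfl | rfl | rfl | rfl
    · obtain rfl : p = 29 := by omega
      exact small_case hp h3 ht hs0 hs hall ne_29.1 ne_29.2.1 ne_29.1
        ne_29.2.2 cyc_29.1 cyc_29.2 (by norm_num) (by norm_num)
    · obtain rfl : p = 37 := by omega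
      exact small_case hp h3 ht hs0 hs hall ne_37.1 ne_37.2.1 ne_37.1
        ne_37.2.2 cyc_37.1 cyc_37.2 (by norm_num) (by norm_num)
    · obtain rfl : p = 45 := by omega
      norm_num at hpr
    · obtain rfl : p = 53 := by omega
      exact small_case hp h3 ht hs0 hs hall ne_53.1 ne_53.2.1 ne_53.1
        ne_53.2.2 cyc_53.1 cyc_53.2 (by norm_num) (by norm_num)
    · obtain rfl : p = 61 := by omega
      exact small_case hp h3 ht hs0 hs hall ne_61.1 ne_61.2.1 ne_61.1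
        ne_61.2.2 cyc_61.1 cyc_61.2 (by norm_num) (by norm_num)
    · obtain rfl : p = 69 := by omega
      norm_num at hpr
    · obtain rfl : p = 77 := by omega
      norm_num at hpr
  by_cases h6 : t = 6 ∧ e < 15
  · obtain ⟨rfl, he⟩ := h6
    obtain ⟨Q, hQ2, hQ'⟩ | ⟨Q, hQ2, hQ'⟩ := hQ
    · obtain rfl : e = 11 := by omega
      obtain rfl : p = 67 := by omega
      exact small_case hp h3 ht hs0 hs hall ne_67.1 ne_67.2.1 ne_67.1
        ne_67.2.2 cyc_67.1 cyc_67.2 (by norm_num) (by norm_num)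
    · obtain rfl : e = 13 := by omega
      obtain rfl : p = 79 := by omega
      exact small_case hp h3 ht hs0 hs hall ne_79.1 ne_79.2.1 ne_79.1
        ne_79.2.2 cyc_79.1 cyc_79.2 (by norm_num) (by norm_num)
  obtain ⟨hS1, hS, -⟩ := dS_le hp h3 ht hs0 hs
  have hpR : (p : ℝ) = e * t + 1 := by exact_mod_cast hp.symm
  have heR : (3 : ℝ) ≤ e := by exact_mod_cast h3
  have htR : (4 : ℝ) ≤ t := by exact_mod_cast ht
  have hdpos : 0 < (p : ℝ) - e := by rw [hpR]; nlinarith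
  set d := (p : ℝ) - e with hd
  -- a value on either side, the near one with the sign of the slope against it
  obtain ⟨N, hN, hN0, hNσ, hs00⟩ : ∃ N : ℝ, (t : ℝ) * (p - e) - e - 1 ≤ t * N ∧ 0 < N ∧
      |σ| * N ≤ (s0 + |s|) - N / d ∧ 0 ≤ s0 := by
    have zero_mem : ∀ {X₁ X₂ : ℝ}, Good d s0 s σ X₁ → Good d s0 s σ X₂ → X₁ ≤ 0 → 0 ≤ X₂ →
        0 ≤ s0 := fun h₁ h₂ u v => by
      have := abs_le.1 (show |s - 0 / d| ≤ s0 + σ * 0 from h₁.between h₂ u v)
      linarith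
    rcases hQ with ⟨Q, hQ2, hQe⟩ | ⟨Q, hQ2, hQe⟩
    · obtain ⟨Q, rfl⟩ : ∃ Q', Q = Q' + 1 := ⟨Q - 1, by omega⟩
      obtain ⟨b, c, hb, hc, hlo⟩ := exists_cyc_lt (k := Q + 1) hp (by omega) (by omega)
        (by omega) (by omega)
      obtain ⟨b', c', hb', hc', hhi⟩ := exists_cyc_gt (k := Q + 1) hp (by omega) (by omega)
        (by omega)
      have x1 := xc_le (k := Q) (Nat.lt_succ_iff.1 hlo)
      have x2 := le_xc (k := Q + 2) hhi
      push_cast at x2
      have hQR : (e : ℝ) + 1 = ((Q : ℝ) + 1) * t := by exact_mod_cast hQe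
      have g1 := hall b c hb hc
      have g2 := hall b' c' hb' hc'
      have e1 : (p : ℝ) * Q - (e : ℝ) ^ 2 = -((p : ℝ) - 1 - e - Q) := by
        rw [show (e : ℝ) = ((Q : ℝ) + 1) * t - 1 by linarith] at hpR ⊢
        rw [hpR]; ring
      have hQ1 : (1 : ℝ) ≤ Q := by exact_mod_cast (show 1 ≤ Q by omega)
      have m1 := mul_le_mul_of_nonneg_left htR (show (0 : ℝ) ≤ Q by linarith)
      have m2 := mul_le_mul_of_nonneg_left htR (show (0 : ℝ) ≤ e by linarith)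
      have hNp : (0 : ℝ) < (p : ℝ) - 1 - e - Q := by linarith only [hQR, hpR, m1, m2, heR, htR]
      have hXl : xc p e b c ≤ -((p : ℝ) - 1 - e - Q) := by linarith only [x1, e1]
      have hXr : (p : ℝ) + e < xc p e b' c' := by linarith only [x2, e1, hQ1, hpR, m2, heR]
      refine ⟨(p : ℝ) - 1 - e - Q, by linarith only [hQR], hNp, ?_,
        zero_mem g1 g2 (by linarith only [hXl, hNp])
          (by linarith only [hXr, heR, hpR, m2])⟩
      have hσ : 0 ≤ σ := by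
        by_contra h
        push Not at h
        have hb2 := g2.pos_bound hdpos le_rfl
        have h1 : ((p : ℝ) + e) / d < xc p e b' c' / d := (div_lt_div_iff_of_pos_right hdpos).2 hXr
        have h2 : s0 + |s| ≤ ((p : ℝ) + e) / d := by rw [le_div_iff₀ hdpos]; linarith only [hS]
        have h3 := mul_nonpos_of_nonpos_of_nonneg h.le
          (show 0 ≤ xc p e b' c' by linarith only [hXr, heR, hpR, m2])
        linarith only [hb2, h1, h2, h3]
      have hb1 := g1.neg_bound hdpos le_rfl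
      have h1 : ((p : ℝ) - 1 - e - Q) / d ≤ -xc p e b c / d :=
        (div_le_div_iff_of_pos_right hdpos).2 (by linarith only [hXl])
      have h3 := mul_le_mul_of_nonneg_left hXl hσ
      rw [abs_of_nonneg hσ]
      linarith only [hb1, h1, h3]
    · obtain ⟨b, c, hb, hc, hlo⟩ := exists_cyc_lt (k := Q) hp (by omega) (by omega)
        (by omega) (by omega)
      obtain ⟨b', c', hb', hc', hhi⟩ := exists_cyc_gt (k := Q) hp (by omega) (by omega)
        (by omega)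
      have x1 := xc_le (k := Q - 1) (Nat.le_sub_one_of_lt hlo)
      have x2 := le_xc (k := Q + 1) hhi
      push_cast [Nat.cast_sub (show 1 ≤ Q by omega)] at x1 x2
      have hQR : (e : ℝ) = (Q : ℝ) * t + 1 := by exact_mod_cast hQe
      have g1 := hall b c hb hc
      have g2 := hall b' c' hb' hc'
      have e1 : (p : ℝ) * Q - (e : ℝ) ^ 2 = Q - e := by
        rw [hpR, hQR]; ring
      have hQ1 : (2 : ℝ) ≤ Q := by exact_mod_cast hQ2
      have m1 := mul_le_mul_of_nonneg_left htR (show (0 : ℝ) ≤ Q by linarith)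
      have m2 := mul_le_mul_of_nonneg_left htR (show (0 : ℝ) ≤ e by linarith)
      have hXl : xc p e b c ≤ -((p : ℝ) + e - Q) := by linarith only [x1, e1]
      have hXr : (p : ℝ) - e + Q ≤ xc p e b' c' := by linarith only [x2, e1]
      have hX0 : xc p e b c ≤ 0 := by linarith only [hXl, hQR, hpR, m1, m2, heR]
      refine ⟨(p : ℝ) - e + Q, ?_, by linarith only [hpR, m2, heR, hQ1], ?_,
        zero_mem g1 g2 hX0 (by linarith only [hXr, hpR, m2, heR, hQ1])⟩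
      · have := mul_nonneg (show (0 : ℝ) ≤ t by linarith) (show (0 : ℝ) ≤ Q by linarith)
        linarith only [this, heR]
      have hσ : σ ≤ 0 := by
        by_contra h
        push Not at h
        have hb1 := g1.neg_bound hdpos le_rfl
        have hX1 : t * ((p : ℝ) + e) - 2 * e + 3 < t * -xc p e b c := by
          have := mul_le_mul_of_nonneg_left (le_neg_of_le_neg hXl) (show (0 : ℝ) ≤ t by linarith)
          linarith only [this, hQR, heR]
        have h2 : t * (s0 + |s|) ≤ (t * ((p : ℝ) + e) - 2 * e + 3) / d := by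
          rw [le_div_iff₀ hdpos]; linarith
        have h1 : (t * ((p : ℝ) + e) - 2 * e + 3) / d < t * -xc p e b c / d :=
          (div_lt_div_iff_of_pos_right hdpos).2 hX1
        rw [mul_div_assoc] at h1
        have h4 := mul_le_mul_of_nonneg_left hb1 (show (0 : ℝ) ≤ t by linarith)
        have h5 := mul_nonpos_of_nonneg_of_nonpos
          (mul_nonneg (show (0 : ℝ) ≤ t by linarith) h.le) hX0
        linarith only [h1, h2, h4, h5]
      have hb2 := g2.pos_bound hdpos le_rfl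
      have h1 : ((p : ℝ) - e + Q) / d ≤ xc p e b' c' / d :=
        (div_le_div_iff_of_pos_right hdpos).2 hXr
      have h3 := mul_le_mul_of_nonpos_left hXr hσ
      rw [abs_of_nonpos hσ]
      linarith only [hb2, h1, h3]
  -- the slope is small
  have key : ∀ c : ℝ, 0 ≤ c → (2 * (t : ℝ) - 1) * e + 4 ≤ c * ((t : ℝ) * d - e - 1) →
      |σ| * d ≤ c := by
    intro c hc0 hc
    have h1 : |σ| * N * d ≤ d * (s0 + |s|) - N := by
      have := mul_le_mul_of_nonneg_right hNσ hdpos.le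
      rwa [sub_mul, div_mul_cancel₀ _ hdpos.ne', mul_comm (s0 + |s|)] at this
    have h2 : t * (d * (s0 + |s|) - N) ≤ c * (t * N) := by
      linarith [mul_le_mul_of_nonneg_left hN hc0]
    have h3 : |σ| * d * (t * N) ≤ c * (t * N) := by
      linarith [mul_le_mul_of_nonneg_left h1 (show (0 : ℝ) ≤ t by linarith)]
    exact le_of_mul_le_mul_right h3 (mul_pos (by linarith) hN0)
  have he2R : 2 * (t : ℝ) ≤ e + 1 := by exact_mod_cast he2
  rcases Nat.lt_or_ge t 8 with ht8 | ht8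
  · obtain rfl | rfl : t = 4 ∨ t = 6 := by omega
    · have h20 : (20 : ℝ) ≤ e := by exact_mod_cast (show 20 ≤ e by omega)
      have he21 : (21 : ℝ) ≤ e := by
        rcases hQ with ⟨Q, -, hQe⟩ | ⟨Q, -, hQe⟩ <;> exact_mod_cast (show 21 ≤ e by omega)
      refine false_of_moment hp h3 ht hs0 hs hall hs00 (c := 17 / 25) (by norm_num)
        (key _ (by norm_num) ?_) ?_
      · rw [hd, hpR]; push_cast; nlinarith
      · push_cast; nlinarith
    · have h15 : (15 : ℝ) ≤ e := by exact_mod_cast (show 15 ≤ e by omega)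
      refine false_of_moment hp h3 ht hs0 hs hall hs00 (c := 9 / 20) (by norm_num)
        (key _ (by norm_num) ?_) ?_
      · rw [hd, hpR]; push_cast; nlinarith
      · push_cast; nlinarith
  · have ht8R : (8 : ℝ) ≤ t := by exact_mod_cast ht8
    refine false_of_moment hp h3 ht hs0 hs hall hs00 (c := 8 / 25) (by norm_num)
      (key _ (by norm_num) ?_) ?_
    · rw [hd, hpR]; nlinarith
    · have hK : 0 ≤ (t : ℝ) * (t - 1) * (t - 2) * (1 - (8 / 25) ^ 2) := by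
        refine mul_nonneg (mul_nonneg (mul_nonneg ?_ ?_) ?_) (by norm_num) <;> linarith
      obtain ⟨x, hx, hx'⟩ : ∃ x : ℝ, 0 ≤ x ∧ (t : ℝ) = x + 8 := ⟨t - 8, by linarith, by ring⟩
      have h1 : (t : ℝ) ^ 4 + 2 ≤ t * (t - 1) * (t - 2) * (1 - (8 / 25) ^ 2) * (2 * t - 1) := by
        rw [hx']
        nlinarith only [hx, mul_nonneg hx hx, mul_nonneg (mul_nonneg hx hx) hx,
          mul_nonneg (mul_nonneg hx hx) (mul_nonneg hx hx)]
      have h2 := mul_le_mul_of_nonneg_left (show 2 * (t : ℝ) - 1 ≤ e by linarith) hK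
      have h3 := mul_le_mul_of_nonneg_right (h1.trans h2) (show (0 : ℝ) ≤ e by linarith)
      linarith

end Cases

/-- The main inequality argument. -/
theorem core {p e t : ℕ} [hp' : Fact p.Prime] (hp : e * t + 1 = p) (he : Odd e) (h3 : 3 ≤ e)
    (hte : Even t) (ht : 4 ≤ t) (het : t ≤ e + 1) {s0 s σ : ℝ}
    (hs0 : s0 ≤ 1 + ((e : ℝ) - 1) / ((p : ℝ) + 1)) (hs : |s| ≤ (e : ℝ) / ((p : ℝ) - 1))
    (href : s0 ≤ 1 + ((e : ℝ) - 2) / ((p : ℝ) + 1) ∨
      σ ≤ 1 / (((e : ℝ) - 1) * ((p : ℝ) + 1) + 1))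
    (hall : AllGood p e s0 s σ) : False := by
  obtain ⟨hS1, hS, -⟩ := dS_le hp h3 ht hs0 hs
  have heR : (3 : ℝ) ≤ e := by exact_mod_cast h3
  have htR : (4 : ℝ) ≤ t := by exact_mod_cast ht
  have hpR : (p : ℝ) = e * t + 1 := by exact_mod_cast hp.symm
  have hdpos : 0 < (p : ℝ) - e := by rw [hpR]; nlinarith
  obtain ⟨q, r, hqr, hrt⟩ : ∃ q r, e = q * t + r ∧ r < t :=
    ⟨e / t, e % t, by rw [mul_comm, Nat.div_add_mod], Nat.mod_lt _ (by omega)⟩
  have he2 := Nat.odd_iff.1 he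
  have ht2 := Nat.even_iff.1 hte
  have hqt : q * t % 2 = 0 := by rw [Nat.mul_mod, ht2, mul_zero, Nat.zero_mod]
  have heq : (e : ℝ) = q * t + r := by exact_mod_cast hqr
  by_cases hr : 3 ≤ r ∧ r + 3 ≤ t
  · have hq1 : 0 < q := by
      rcases Nat.eq_zero_or_pos q with rfl | h
      · omega
      · exact h
    obtain ⟨b, c, hb, hc, hlo⟩ := exists_cyc_lt (k := q) hp (by omega) (by omega) hq1 (by omega)
    obtain ⟨b', c', hb', hc', hhi⟩ := exists_cyc_gt (k := q + 1) hp (by omega) (by omega)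
      (by rw [add_mul, one_mul]; omega)
    have x1 := xc_le (k := q - 1) (Nat.le_sub_one_of_lt hlo)
    have x2 := le_xc (k := q + 2) hhi
    push_cast [Nat.cast_sub hq1] at x1 x2
    have hrR : (3 : ℝ) ≤ r := by exact_mod_cast hr.1
    have hr2 : (r : ℝ) + 3 ≤ t := by exact_mod_cast hr.2
    have hq0 : (1 : ℝ) ≤ q := by exact_mod_cast hq1
    refine false_of_far hdpos hS (hall b c hb hc) (hall b' c' hb' hc') ?_ ?_ (by nlinarith)
    · have : (p : ℝ) * q - (e : ℝ) ^ 2 = q - e * r := by rw [hpR, heq]; ring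
      nlinarith
    · have : (p : ℝ) * q - (e : ℝ) ^ 2 = q - e * r := by rw [hpR, heq]; ring
      nlinarith
  -- the remainder is `1` or `t - 1`
  obtain ⟨Q, hQ, hside⟩ : ∃ Q : ℕ, e + 1 = Q * t ∧ r + 1 = t ∨ e = Q * t + 1 ∧ r = 1 := by
    rcases Nat.lt_or_ge r 3 with h | h
    · exact ⟨q, Or.inr ⟨by omega, by omega⟩⟩
    · exact ⟨q + 1, Or.inl ⟨by rw [add_mul, one_mul]; omega, by omega⟩⟩
  · rcases Nat.lt_or_ge Q 2 with hQ2 | hQ2
    · interval_cases Q
      · omega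
      · exact false_pred hp (by omega) h3 hs0 hs href hall
    refine far_or_moment hp h3 ht hs0 hs hall ht2 ?_ (Or.inl ⟨Q, hQ2, hQ⟩)
    nlinarith
  · rename_i hh
    obtain ⟨hQ, -⟩ := hh
    rcases Nat.lt_or_ge Q 2 with hQ2 | hQ2
    · interval_cases Q
      · omega
      · exact false_succ hp (by omega) ht hs0 hs hall
    refine far_or_moment hp h3 ht hs0 hs hall ht2 ?_ (Or.inr ⟨Q, hQ2, hQ⟩)
    nlinarith

end Cfsg.Agent.H82.SmallDeg
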