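import Cfsg.Agent.H40.SmallDeg.Main

/-!
The classes of elements of order `p`, and the automizer in a group with quotient `PSL(2, p)`.
-/

set_option autoImplicit false
set_option maxHeartbeats 1000000
set_option linter.unusedSectionVars false

namespace Cfsg.Agent.H82.SmallDeg

open Cfsg.Agent.H43.D1

attribute [local instance] Fintype.ofFinite Classical.propDecidable

variable {p : ℕ} [hp : Fact p.Prime] {G : Type*} [Group G] [Finite G] (S : Setup p G)

theorem pow_val_eq_pow (n : ℕ) : S.x ^ ((n : ZMod p)).val = S.x ^ n :=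
  H31.Defect.pow_val_natCast S.orderOf_x n

/-- The number of classes of elements of order `p`. -/
theorem card_classes :
    Nat.card {c : ConjClasses G // ∃ g : G, ConjClasses.mk g = c ∧ orderOf g = p} *
      Nat.card S.act.range = p - 1 := by
  rw [show p - 1 = Nat.card ((ZMod p)ˣ ⧸ S.act.range) * Nat.card S.act.range by
    rw [← Subgroup.card_eq_card_quotient_mul_card_subgroup, Nat.card_eq_fintype_card,
      ZMod.card_units]]
  congr 1
  symm
  let f : (ZMod p)ˣ ⧸ S.act.range →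
      {c : ConjClasses G // ∃ g : G, ConjClasses.mk g = c ∧ orderOf g = p} :=
    fun q => ⟨ConjClasses.mk (S.x ^ ((Quotient.out q : (ZMod p)ˣ) : ZMod p).val), _, rfl,
      S.orderOf_x_pow _⟩
  have hconj : ∀ (l : S.L) (c : (ZMod p)ˣ), IsConj (S.x ^ (c : ZMod p).val)
      (S.x ^ ((S.act l * c : (ZMod p)ˣ) : ZMod p).val) := fun l c => isConj_iff.2 ⟨(l : G), by
    rw [← conj_pow, S.act_spec, ← pow_mul, ← pow_val_eq_pow S, Nat.cast_mul,
      ZMod.natCast_rightInverse, ZMod.natCast_rightInverse, Units.val_mul]⟩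
  refine Nat.card_congr (Equiv.ofBijective f ⟨fun q q' h => ?_, fun C => ?_⟩)
  · have h' := ConjClasses.mk_eq_mk_iff_isConj.1 (congrArg Subtype.val h)
    obtain ⟨w, hw⟩ := isConj_iff.1 h'
    set a := (Quotient.out q : (ZMod p)ˣ) with ha
    set b := (Quotient.out q' : (ZMod p)ˣ) with hb
    have hxa : S.x = (S.x ^ (a : ZMod p).val) ^ ((a⁻¹ : (ZMod p)ˣ) : ZMod p).val := by
      rw [← pow_mul, ← pow_val_eq_pow S, Nat.cast_mul, ZMod.natCast_rightInverse,
        ZMod.natCast_rightInverse, Units.mul_inv, ZMod.val_one, pow_one]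
    have hwN : w ∈ S.N := by
      refine S.mem_N_of_conj_mem ?_
      rw [hxa, ← conj_pow, hw]
      exact Subgroup.pow_mem _ (Subgroup.pow_mem _ (Subgroup.mem_zpowers _) _) _
    obtain ⟨l, hl, u, hu, rfl⟩ := S.mem_N_iff.1 hwN
    obtain ⟨n, rfl⟩ : ∃ n : ℕ, S.x ^ n = u := mem_powers_iff_mem_zpowers.2 hu
    have hw' : S.x ^ ((S.act ⟨l, hl⟩ * a : (ZMod p)ˣ) : ZMod p).val = S.x ^ (b : ZMod p).val := by
      have h2 : l * S.x ^ (a : ZMod p).val * l⁻¹ = S.x ^ (b : ZMod p).val := by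
        rw [← hw]
        group
      rw [← h2, ← conj_pow, S.act_spec ⟨l, hl⟩, ← pow_mul]
      conv_rhs => rw [← pow_val_eq_pow S, Nat.cast_mul, ZMod.natCast_rightInverse,
        ZMod.natCast_rightInverse]
      rw [Units.val_mul]
    rw [S.x_pow_eq_iff, ZMod.natCast_rightInverse, ZMod.natCast_rightInverse] at hw'
    rw [← QuotientGroup.out_eq' q, ← QuotientGroup.out_eq' q', QuotientGroup.eq, ← ha, ← hb]
    exact ⟨⟨l, hl⟩, by rw [← Units.ext hw']; rw [mul_comm (S.act _), inv_mul_cancel_left]⟩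
  · obtain ⟨C, g, rfl, hg⟩ := C
    obtain ⟨w, hw⟩ := H42.SmallFaithful.exists_conj_mem S hg
    obtain ⟨n, hn⟩ : ∃ n : ℕ, S.x ^ n = w * g * w⁻¹ := mem_powers_iff_mem_zpowers.2 hw
    have hn0 : (n : ZMod p) ≠ 0 := by
      intro h0
      rw [ZMod.natCast_eq_zero_iff] at h0
      have h1 : S.x ^ n = 1 := orderOf_dvd_iff_pow_eq_one.1 (S.orderOf_x.symm ▸ h0)
      rw [hn] at h1
      have h2 : orderOf g = 1 := by
        rw [← (MulAut.conj w).orderOf_eq g, show MulAut.conj w g = w * g * w⁻¹ from rfl, h1,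
          orderOf_one]
      exact hp.out.one_lt.ne (h2.symm.trans hg)
    refine ⟨QuotientGroup.mk (Units.mk0 (n : ZMod p) hn0), Subtype.ext ?_⟩
    show ConjClasses.mk (S.x ^ _) = ConjClasses.mk g
    obtain ⟨⟨r, l, rfl⟩, hr⟩ := QuotientGroup.mk_out_eq_mul S.act.range (Units.mk0 (n : ZMod p) hn0)
    rw [hr, ConjClasses.mk_eq_mk_iff_isConj]
    refine (IsConj.symm ?_).trans (show IsConj (S.x ^ n) g from
      isConj_iff.2 ⟨w⁻¹, by rw [hn]; group⟩)
    have h := hconj l (Units.mk0 (n : ZMod p) hn0)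
    rw [Units.val_mk0, pow_val_eq_pow S, mul_comm (S.act l)] at h
    exact h

/-- The squares are automizers when the central quotient is `PSL(2, p)`. -/
theorem half_le_range (hp2 : 2 < p) (hpsl : Nonempty ((G ⧸ Subgroup.center G) ≃*
      Matrix.ProjectiveSpecialLinearGroup (Fin 2) (ZMod p))) :
    p - 1 ≤ 2 * Nat.card S.act.range := by
  obtain ⟨iso⟩ := hpsl
  let φ : G →* Matrix.ProjectiveSpecialLinearGroup (Fin 2) (ZMod p) :=
    iso.toMonoidHom.comp (QuotientGroup.mk' (Subgroup.center G))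
  have hφsurj : Function.Surjective φ := iso.surjective.comp (QuotientGroup.mk'_surjective _)
  haveI : Finite (Matrix.ProjectiveSpecialLinearGroup (Fin 2) (ZMod p)) :=
    Finite.of_surjective φ hφsurj
  let π := QuotientGroup.mk' (Subgroup.center (Matrix.SpecialLinearGroup (Fin 2) (ZMod p)))
  let U : ZMod p → Matrix.SpecialLinearGroup (Fin 2) (ZMod p) := fun s =>
    ⟨!![1, s; 0, 1], by simp [Matrix.det_fin_two]⟩
  have hUadd : ∀ s s', U s * U s' = U (s + s') := fun s s' => Subtype.ext (by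
    show !![1, s; 0, 1] * !![1, s'; 0, 1] = !![1, s + s'; 0, 1]
    ext i j
    fin_cases i <;> fin_cases j <;> simp [add_comm])
  have hUpow : ∀ n : ℕ, U 1 ^ n = U n := by
    intro n
    induction n with
    | zero =>
      rw [pow_zero]
      exact Subtype.ext (by ext i j; fin_cases i <;> fin_cases j <;> simp [U])
    | succ n ih => rw [pow_succ, ih, hUadd, Nat.cast_succ]
  have huo : orderOf (π (U 1)) = p := by
    refine orderOf_eq_prime ?_ ?_
    · rw [← map_pow, hUpow, ZMod.natCast_self, ← Nat.cast_zero, ← hUpow, pow_zero, map_one]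
    · intro h
      have hc := (QuotientGroup.eq_one_iff _).1 h
      let W : Matrix.SpecialLinearGroup (Fin 2) (ZMod p) :=
        ⟨!![1, 0; 1, 1], by simp [Matrix.det_fin_two]⟩
      have h2 := congrArg (fun M : Matrix.SpecialLinearGroup (Fin 2) (ZMod p) =>
        (M : Matrix (Fin 2) (Fin 2) (ZMod p)) 0 0) (Subgroup.mem_center_iff.1 hc W)
      rw [Matrix.SpecialLinearGroup.coe_mul, Matrix.SpecialLinearGroup.coe_mul] at h2
      simp [U, W, Matrix.mul_apply, Fin.sum_univ_two] at h2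
  have hxo : orderOf (φ S.x) ∣ p := by
    have := orderOf_map_dvd φ S.x
    rwa [S.orderOf_x] at this
  have hsq : ¬ p ^ 2 ∣ Nat.card (Matrix.ProjectiveSpecialLinearGroup (Fin 2) (ZMod p)) := fun h =>
    S.not_sq (h.trans (Subgroup.card_dvd_of_surjective φ hφsurj))
  -- the image of `x` generates a Sylow subgroup
  obtain ⟨y, hy⟩ := hφsurj (π (U 1))
  have hxne : φ S.x ≠ 1 := by
    intro h1
    -- otherwise every element of order `p` maps to the identity
    have hdvd : p ∣ orderOf y := by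
      have h2 := orderOf_map_dvd φ y
      rwa [hy, huo] at h2
    obtain ⟨w, hw⟩ := H42.SmallFaithful.exists_conj_mem S (orderOf_pow_orderOf_div (orderOf_pos y).ne' hdvd)
    obtain ⟨n, hn⟩ : ∃ n : ℕ, S.x ^ n = w * y ^ (orderOf y / p) * w⁻¹ :=
      mem_powers_iff_mem_zpowers.2 hw
    have h3 := congrArg φ hn
    rw [map_pow, h1, one_pow, map_mul, map_mul, map_inv, map_pow, hy, eq_comm,
      conj_eq_one_iff, ← orderOf_dvd_iff_pow_eq_one, huo] at h3
    obtain ⟨q, hq⟩ := h3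
    have h4 : p * p ∣ Nat.card G := by
      refine dvd_trans ⟨q, ?_⟩ (orderOf_dvd_natCard y)
      rw [mul_assoc, ← hq, Nat.mul_div_cancel' hdvd]
    exact S.not_sq (by rwa [sq])
  have hxo' : orderOf (φ S.x) = p :=
    ((Nat.dvd_prime hp.out).1 hxo).resolve_left fun h => hxne (orderOf_eq_one_iff.1 h)
  obtain ⟨T, hT⟩ := exists_setup (show p ∣ Nat.card (Matrix.ProjectiveSpecialLinearGroup (Fin 2) (ZMod p)) by
    have h := orderOf_dvd_natCard (π (U 1)); rw [huo] at h; exact h) hsq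
    (P := Subgroup.zpowers (φ S.x)) (by rw [Nat.card_zpowers, hxo'])
  obtain ⟨c, hc⟩ := H42.SmallFaithful.exists_conj_mem T huo
  rw [hT] at hc
  obtain ⟨m, hm⟩ : ∃ m : ℕ, φ S.x ^ m = c * π (U 1) * c⁻¹ := mem_powers_iff_mem_zpowers.2 hc
  have hm0 : (m : ZMod p) ≠ 0 := by
    intro h0
    rw [ZMod.natCast_eq_zero_iff] at h0
    have h1 : φ S.x ^ m = 1 := orderOf_dvd_iff_pow_eq_one.1 (hxo'.symm ▸ h0)
    rw [hm, conj_eq_one_iff] at h1
    rw [h1, orderOf_one] at huo
    exact hp.out.one_lt.ne huo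
  -- conjugation by a diagonal element
  have hsquare : ∀ a : (ZMod p)ˣ, a ^ 2 ∈ S.act.range := by
    intro a
    let D : Matrix.SpecialLinearGroup (Fin 2) (ZMod p) :=
      ⟨!![(a : ZMod p), 0; 0, ((a⁻¹ : (ZMod p)ˣ) : ZMod p)], by
        rw [Matrix.det_fin_two_of, mul_zero, sub_zero, Units.mul_inv]⟩
    have hD : D * U 1 = U 1 ^ ((a : ZMod p) ^ 2).val * D := by
      rw [hUpow, ZMod.natCast_rightInverse]
      refine Subtype.ext ?_
      show !![(a : ZMod p), 0; 0, ((a⁻¹ : (ZMod p)ˣ) : ZMod p)] * !![1, 1; 0, 1] =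
        !![1, (a : ZMod p) ^ 2; 0, 1] * !![(a : ZMod p), 0; 0, ((a⁻¹ : (ZMod p)ˣ) : ZMod p)]
      have ha : (a : ZMod p) ^ 2 * ((a⁻¹ : (ZMod p)ˣ) : ZMod p) = a := by
        rw [sq, mul_assoc, Units.mul_inv, mul_one]
      rw [Matrix.mul_fin_two, Matrix.mul_fin_two, ha]
      simp only [mul_one, one_mul, mul_zero, zero_mul, add_zero, zero_add]
    obtain ⟨g, hg⟩ := hφsurj (c * π D * c⁻¹)
    set s := ((a : ZMod p) ^ 2).val with hs
    have h1 : φ (g * S.x ^ m * g⁻¹) = φ ((S.x ^ m) ^ s) := by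
      have h2 : π D * π (U 1) = π (U 1) ^ s * π D := by rw [← map_mul, ← map_pow, ← map_mul, hD]
      rw [map_mul, map_mul, map_inv, map_pow, map_pow φ (S.x ^ m), map_pow, hg, hm, conj_pow]
      calc c * π D * c⁻¹ * (c * π (U 1) * c⁻¹) * (c * π D * c⁻¹)⁻¹
          = c * (π D * π (U 1)) * (π D)⁻¹ * c⁻¹ := by group
        _ = c * π (U 1) ^ s * c⁻¹ := by rw [h2]; group
    -- the central factor lies in the Sylow subgroup
    have hz : (g * S.x ^ m * g⁻¹)⁻¹ * (S.x ^ m) ^ s ∈ Subgroup.center G := by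
      rw [← QuotientGroup.eq]
      exact iso.injective h1
    set z := (g * S.x ^ m * g⁻¹)⁻¹ * (S.x ^ m) ^ s with hzd
    have hzx : (S.x ^ m) ^ s = g * S.x ^ m * g⁻¹ * z := by rw [hzd, mul_inv_cancel_left]
    have hzp : z ^ p = 1 := by
      have hcm : Commute (g * S.x ^ m * g⁻¹)⁻¹ ((S.x ^ m) ^ s) := by
        have h3 : Commute (g * S.x ^ m * g⁻¹)⁻¹ z := Subgroup.mem_center_iff.1 hz _
        rw [hzx]
        exact (((Commute.refl (g * S.x ^ m * g⁻¹)).inv_left).mul_right h3)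
      have hxm : (S.x ^ m) ^ p = 1 := by rw [← pow_mul, mul_comm, pow_mul, S.x_pow_p, one_pow]
      have hxs : ((S.x ^ m) ^ s) ^ p = 1 := by rw [← pow_mul, mul_comm, pow_mul, hxm, one_pow]
      rw [hzd, hcm.mul_pow, inv_pow, conj_pow, hxm, hxs]
      simp
    have hzP : z ∈ S.P := by
      refine S.mem_P_of_pow ?_ hzp
      refine fun u => ?_
      rw [show z * u * z⁻¹ = u by rw [← Subgroup.mem_center_iff.1 hz u, mul_inv_cancel_right]]
    have hgP : g * S.x ^ m * g⁻¹ ∈ S.P := by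
      rw [show g * S.x ^ m * g⁻¹ = (S.x ^ m) ^ s * z⁻¹ by rw [hzx, mul_inv_cancel_right]]
      exact S.P.mul_mem (Subgroup.pow_mem _ (Subgroup.pow_mem _ (Subgroup.mem_zpowers _) _) _)
        (S.P.inv_mem hzP)
    have hgN : g ∈ S.N := by
      refine S.mem_N_of_conj_mem ?_
      have hx : S.x = (S.x ^ m) ^ ((m : ZMod p)⁻¹).val := by
        rw [← pow_mul, ← pow_val_eq_pow S, Nat.cast_mul, ZMod.natCast_rightInverse,
          mul_inv_cancel₀ hm0, ZMod.val_one, pow_one]
      rw [hx, ← conj_pow]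
      exact S.P.pow_mem hgP _
    obtain ⟨l, hl, u, hu, rfl⟩ := S.mem_N_iff.1 hgN
    obtain ⟨k, rfl⟩ : ∃ k : ℕ, S.x ^ k = u := mem_powers_iff_mem_zpowers.2 hu
    have h4 : l * S.x ^ k * S.x ^ m * (l * S.x ^ k)⁻¹ =
        S.x ^ ((S.act ⟨l, hl⟩ : ZMod p).val * m) := by
      rw [pow_mul, ← S.act_spec ⟨l, hl⟩, conj_pow]
      group
    rw [h4, map_pow, ← pow_mul, map_pow] at h1
    rw [pow_eq_pow_iff_modEq, hxo', ← ZMod.natCast_eq_natCast_iff, Nat.cast_mul, Nat.cast_mul,
      ZMod.natCast_rightInverse, mul_comm (m : ZMod p), hs, ZMod.natCast_rightInverse] at h1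
    exact ⟨⟨l, hl⟩, Units.ext (by rw [Units.val_pow_eq_pow_val]; exact mul_right_cancel₀ hm0 h1)⟩
  have hle : (powMonoidHom 2 : (ZMod p)ˣ →* (ZMod p)ˣ).range ≤ S.act.range := by
    rintro _ ⟨a, rfl⟩
    exact hsquare a
  have hker : Nat.card (powMonoidHom 2 : (ZMod p)ˣ →* (ZMod p)ˣ).ker ≤ 2 := by
    rw [Nat.card_eq_fintype_card, Fintype.card_subtype]
    refine (Finset.card_le_card (t := {1, -1}) fun a ha => ?_).trans Finset.card_le_two
    simp only [Finset.mem_filter, Finset.mem_univ, true_and, MonoidHom.mem_ker, powMonoidHom_apply]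
      at ha
    rcases sq_eq_one_iff.1 (show (a : ZMod p) ^ 2 = 1 by
      rw [← Units.val_pow_eq_pow_val, ha, Units.val_one]) with h | h
    · simp [Units.ext (h.trans Units.val_one.symm)]
    · simp [Units.ext (show (a : ZMod p) = ((-1 : (ZMod p)ˣ) : ZMod p) by simpa using h)]
  have h := (powMonoidHom 2 : (ZMod p)ˣ →* (ZMod p)ˣ).ker.card_mul_index
  rw [Subgroup.index_ker, Nat.card_eq_fintype_card (α := (ZMod p)ˣ), ZMod.card_units] at h
  rw [← h]
  exact Nat.mul_le_mul hker (Subgroup.card_le_of_le hle)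

/-- The automizer is proper when a small faithful character exists. -/
theorem range_lt (χ : Cfsg.IrrCharacter G) (hfaith : ∀ g, χ.1 g = χ.1 1 → g = 1)
    (hd : Cfsg.charDegree χ.1 + 1 < p) : Nat.card S.act.range < p - 1 := by
  have hle : Nat.card S.act.range ≤ p - 1 := by
    have h := Subgroup.card_le_card_group S.act.range
    rwa [Nat.card_eq_fintype_card (α := (ZMod p)ˣ), ZMod.card_units] at h
  refine lt_of_le_of_ne hle fun heq => ?_
  have htop : S.act.range = ⊤ := Subgroup.eq_top_of_card_eq _ (by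
    rw [heq, Nat.card_eq_fintype_card (α := (ZMod p)ˣ), ZMod.card_units])
  refine S.x_ne_one (hfaith _ ?_)
  obtain ⟨n, A, htr, -⟩ := H31.Defect.exists_matrix_rep χ
  have hn : n = Cfsg.charDegree χ.1 := by
    have h := htr 1
    rw [map_one, Matrix.trace_one, Fintype.card_fin, H43.irr_charDegree_spec] at h
    exact_mod_cast h
  have hmult : ∀ c : (ZMod p)ˣ,
      H39.SmallDeg.mult S.x A (c : ZMod p) = H39.SmallDeg.mult S.x A (1 : ZMod p) := by
    intro c
    obtain ⟨l, hl⟩ : c ∈ S.act.range := htop ▸ Subgroup.mem_top c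
    refine Nat.cast_injective (R := ℂ) ?_
    rw [H39.SmallDeg.mult_eq S.orderOf_x htr, H39.SmallDeg.mult_eq S.orderOf_x htr]
    congr 1
    refine Fintype.sum_equiv c.mulLeft _ _ fun i => ?_
    rw [Units.mulLeft_apply, mul_one, mul_comm i]
    congr 1
    rw [← hl, ← H26.irr_conj χ (S.x ^ i.val) (l : G), ← conj_pow, S.act_spec, ← pow_mul,
      ← pow_val_eq_pow S ((S.act l : ZMod p).val * i.val), Nat.cast_mul,
      ZMod.natCast_rightInverse, ZMod.natCast_rightInverse]
  have hsum : ∑ c : ZMod p, H39.SmallDeg.mult S.x A c = n := by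
    rw [← Nat.cast_inj (R := ℂ), Nat.cast_sum]
    exact_mod_cast H39.SmallDeg.sum_mult (A := A) S.orderOf_x
  rw [sum_zmod_units_add (fun c => H39.SmallDeg.mult S.x A c),
    Finset.sum_congr rfl fun c _ => hmult c, Finset.sum_const, Finset.card_univ, ZMod.card_units,
    smul_eq_mul] at hsum
  have h1 : H39.SmallDeg.mult S.x A (1 : ZMod p) = 0 := by
    by_contra h
    have := Nat.le_mul_of_pos_right (p - 1) (Nat.pos_of_ne_zero h)
    omega
  have hE : ∀ c : ZMod p, c ≠ 0 → H39.SmallDeg.eProj S.x A c = 0 := fun c hc =>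
    (H39.SmallDeg.mult_eq_zero_iff S.orderOf_x).1 (by rw [← Units.val_mk0 hc, hmult, h1])
  have hone : H39.SmallDeg.eProj S.x A (0 : ZMod p) = 1 := by
    rw [← H39.SmallDeg.sum_eProj (p := p) (z := S.x) (A := A), Finset.sum_eq_single (0 : ZMod p)
      (fun c _ hc => hE c hc) (fun h => absurd (Finset.mem_univ _) h)]
  have h := H39.SmallDeg.zpow_mul_eProj (A := A) S.orderOf_x (1 : ZMod p) 0
  rw [hone, mul_zero, H39.SmallDeg.rt_zero, one_smul, mul_one, ZMod.val_one, pow_one] at h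
  rw [← htr, ← htr, h, map_one]
where
  sum_zmod_units_add (f : ZMod p → ℕ) : ∑ c : ZMod p, f c = f 0 + ∑ c : (ZMod p)ˣ, f c := by
    rw [← Finset.add_sum_erase _ _ (Finset.mem_univ (0 : ZMod p))]
    congr 1
    exact (Finset.sum_bij (fun (c : (ZMod p)ˣ) _ => (c : ZMod p))
      (fun c _ => Finset.mem_erase.2 ⟨c.ne_zero, Finset.mem_univ _⟩)
      (fun _ _ _ _ h => Units.ext h)
      (fun c hc => ⟨Units.mk0 c (Finset.ne_of_mem_erase hc), Finset.mem_univ _, rfl⟩)
      (fun _ _ => rfl)).symm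

end Cfsg.Agent.H82.SmallDeg
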