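import Mathlib.Algebra.Field.ZMod
import Mathlib.Algebra.Polynomial.BigOperators
import Mathlib.Algebra.Polynomial.Roots
import Mathlib.RingTheory.Polynomial.Pochhammer
import Mathlib.RingTheory.RootsOfUnity.Basic
import Mathlib.FieldTheory.Finite.Basic
import Mathlib.Data.Nat.Choose.Sum
import Mathlib.Data.Nat.Choose.Dvd
import Mathlib.Data.ZMod.Units
import Mathlib.Tactic

/-!
The translates `1 + bE` of the subgroup `E` of order `e` in the prime field cannot meet every coset
of `E` at least `k` times for all `b`, nor at most `k` times, when `e` is near to `k t`.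
-/

set_option autoImplicit false
set_option maxHeartbeats 800000

namespace Cfsg.Agent.H82.SmallDeg

open Polynomial Finset

variable (p : ℕ) [Fact p.Prime] (e : ℕ)

/-- The `e`-th roots of unity in the prime field. -/
def roots (p : ℕ) [Fact p.Prime] (e : ℕ) : Finset (ZMod p) :=
  Finset.univ.filter fun x => x ^ e = 1

/-- The number of solutions of `a + b g + c h = 0` with `g`, `h` in the subgroup. -/
def cyc (p : ℕ) [Fact p.Prime] (e : ℕ) (a b c : ZMod p) : ℕ :=
  ((roots p e ×ˢ roots p e).filter fun q => a + b * q.1 + c * q.2 = 0).card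

variable {p e}

theorem mem_roots {x : ZMod p} : x ∈ roots p e ↔ x ^ e = 1 := by simp [roots]

theorem roots_ne_zero (he : 0 < e) {x : ZMod p} (hx : x ∈ roots p e) : x ≠ 0 := by
  rintro rfl
  rw [mem_roots, zero_pow he.ne'] at hx
  exact zero_ne_one hx

variable {t : ℕ}

theorem card_roots (hp : e * t + 1 = p) : (roots p e).card = e := by
  obtain ⟨g, hg⟩ := IsCyclic.exists_generator (α := (ZMod p)ˣ)
  have hord : orderOf g = e * t := by
    rw [orderOf_eq_card_of_forall_mem_zpowers hg, Nat.card_eq_fintype_card, ZMod.card_units]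
    omega
  have hpos : 0 < e * t := by have := (Fact.out : p.Prime).two_le; omega
  have he : 0 < e := Nat.pos_of_mul_pos_right hpos
  have ht : 0 < t := Nat.pos_of_mul_pos_left hpos
  have hprim : IsPrimitiveRoot ((g : ZMod p) ^ t) e := by
    refine IsPrimitiveRoot.pow hpos ?_ (mul_comm _ _)
    exact IsPrimitiveRoot.coe_units_iff.2 (hord ▸ IsPrimitiveRoot.orderOf g)
  conv_rhs => rw [← hprim.card_nthRootsFinset]
  congr 1
  ext x
  rw [mem_roots, mem_nthRootsFinset he]

/-- The cyclotomic number as the number of points of the translate in a coset. -/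
theorem cyc_eq_card (he : 0 < e) {b c : ZMod p} (hc : c ≠ 0) :
    cyc p e 1 b c =
      ((roots p e).filter fun g => (1 + b * g) ^ e = (-c) ^ e).card := by
  refine Finset.card_bij' (fun q _ => q.1) (fun g _ => (g, -(1 + b * g) / c)) ?_ ?_ ?_ ?_
  · intro q hq
    simp only [mem_filter, mem_product] at hq ⊢
    refine ⟨hq.1.1, ?_⟩
    rw [show 1 + b * q.1 = -c * q.2 by linear_combination hq.2, mul_pow, mem_roots.1 hq.1.2,
      mul_one]
  · intro g hg
    simp only [mem_filter, mem_product] at hg ⊢
    refine ⟨⟨hg.1, mem_roots.2 ?_⟩, by field_simp; ring⟩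
    rw [div_pow, neg_pow, hg.2, ← mul_pow, show (-1 : ZMod p) * -c = c by ring,
      div_self (pow_ne_zero _ hc)]
  · intro q hq
    simp only [mem_filter, mem_product] at hq
    refine Prod.ext rfl ?_
    show -(1 + b * q.1) / c = q.2
    rw [div_eq_iff hc]
    linear_combination -hq.2
  · intro g _; rfl

theorem exists_neg_pow_eq (hp : e * t + 1 = p) {ζ : ZMod p} (hζ : ζ ^ t = 1) :
    ∃ c : ZMod p, c ≠ 0 ∧ (-c) ^ e = ζ := by
  obtain ⟨g, hg⟩ := IsCyclic.exists_generator (α := (ZMod p)ˣ)
  have hord : orderOf g = e * t := by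
    rw [orderOf_eq_card_of_forall_mem_zpowers hg, Nat.card_eq_fintype_card, ZMod.card_units]
    omega
  have hpos : 0 < e * t := by have := (Fact.out : p.Prime).two_le; omega
  have ht : 0 < t := Nat.pos_of_mul_pos_left hpos
  have : NeZero t := ⟨ht.ne'⟩
  have hprim : IsPrimitiveRoot ((g : ZMod p) ^ e) t :=
    IsPrimitiveRoot.pow hpos (IsPrimitiveRoot.coe_units_iff.2 (hord ▸ IsPrimitiveRoot.orderOf g)) rfl
  obtain ⟨i, -, hi⟩ := hprim.eq_pow_of_pow_eq_one hζ
  refine ⟨-((g : ZMod p) ^ i), neg_ne_zero.2 (pow_ne_zero _ g.ne_zero), ?_⟩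
  rw [neg_neg, ← hi, ← pow_mul, ← pow_mul, mul_comm]

section Coeff

variable {K : Type*} [Field K]

/-- The coefficient of `T ^ i` has degree at most `e i` in the parameter. -/
def Bounded (e : ℕ) (F : Polynomial (Polynomial K)) : Prop :=
  ∀ i, (F.coeff i).natDegree ≤ e * i

theorem Bounded.one : Bounded e (1 : Polynomial (Polynomial K)) := fun i => by
  rw [coeff_one]
  split_ifs <;> simp

theorem Bounded.mul {F H : Polynomial (Polynomial K)} (hF : Bounded e F) (hH : Bounded e H) :
    Bounded e (F * H) := fun i => by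
  rw [coeff_mul]
  refine natDegree_sum_le_of_forall_le _ _ fun q hq => ?_
  refine natDegree_mul_le.trans ((Nat.add_le_add (hF q.1) (hH q.2)).trans ?_)
  rw [← Nat.mul_add, mem_antidiagonal.1 hq]

theorem Bounded.prod {ι : Type*} {s : Finset ι} {F : ι → Polynomial (Polynomial K)}
    (h : ∀ i ∈ s, Bounded e (F i)) : Bounded e (∏ i ∈ s, F i) :=
  Finset.prod_induction _ _ (fun _ _ ha hb => ha.mul hb) Bounded.one h

theorem Bounded.pow_monomial (q : Polynomial K) (hq : q.natDegree ≤ e) (j : ℕ) :
    Bounded e ((C q * X : Polynomial (Polynomial K)) ^ j) := fun i => by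
  rw [mul_pow, ← map_pow, coeff_C_mul_X_pow]
  split_ifs with h
  · subst h
    exact natDegree_pow_le.trans (by rw [mul_comm]; exact Nat.mul_le_mul_right _ hq)
  · simp

theorem Bounded.sum {ι : Type*} {s : Finset ι} {F : ι → Polynomial (Polynomial K)}
    (h : ∀ i ∈ s, Bounded e (F i)) : Bounded e (∑ i ∈ s, F i) := fun n => by
  rw [finsetSum_coeff]
  exact natDegree_sum_le_of_forall_le _ _ fun i hi => h i hi n

theorem Bounded.one_sub {q : Polynomial K} (hq : q.natDegree ≤ e) :
    Bounded e (1 - C q * X : Polynomial (Polynomial K)) := fun i => by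
  have h := Bounded.pow_monomial (e := e) q hq 1 i
  rw [pow_one] at h
  rw [coeff_sub]
  exact (natDegree_sub_le _ _).trans (max_le (Bounded.one i) h)

end Coeff

/-- A product over a finset regrouped by the value of a map into another finset. -/
theorem prod_eq_pow_mul {K : Type*} [CommRing K] [DecidableEq K] (S : Finset K) (Z : Finset K)
    (f : K → K) (k : ℕ) (h : ∀ ζ ∈ Z, k ≤ (S.filter fun g => f g = ζ).card) :
    ∃ U : Finset K, U ⊆ S ∧ U.card + k * Z.card = S.card ∧
      ∀ F : K → Polynomial K, ∏ g ∈ S, F (f g) = (∏ ζ ∈ Z, F ζ) ^ k * ∏ g ∈ U, F (f g) := by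
  classical
  choose! W hW hWc using fun ζ (hζ : ζ ∈ Z) => Finset.exists_subset_card_eq (h ζ hζ)
  have hdisj : (Z : Set K).PairwiseDisjoint W := by
    intro a ha b hb hab
    rw [Function.onFun, Finset.disjoint_left]
    intro x hxa hxb
    exact hab ((mem_filter.1 (hW a ha hxa)).2.symm.trans (mem_filter.1 (hW b hb hxb)).2)
  have hsub : Z.biUnion W ⊆ S := fun x hx => by
    obtain ⟨ζ, hζ, hx⟩ := mem_biUnion.1 hx
    exact (mem_filter.1 (hW ζ hζ hx)).1
  refine ⟨S \ Z.biUnion W, sdiff_subset, ?_, fun F => ?_⟩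
  · have := card_sdiff_add_card_eq_card hsub
    rw [card_biUnion hdisj, sum_congr rfl hWc, sum_const, smul_eq_mul, mul_comm Z.card] at this
    exact this
  · rw [← prod_sdiff hsub, prod_biUnion hdisj, ← prod_pow, mul_comm]
    congr 1
    refine prod_congr rfl fun ζ hζ => ?_
    rw [prod_congr rfl fun x hx => by rw [(mem_filter.1 (hW ζ hζ hx)).2], prod_const, hWc ζ hζ]

theorem prod_one_sub_roots (hp : e * t + 1 = p) :
    ∏ ζ ∈ nthRootsFinset t (1 : ZMod p), (1 - C ζ * X : Polynomial (ZMod p)) = 1 - X ^ t := by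
  obtain ⟨g, hg⟩ := IsCyclic.exists_generator (α := (ZMod p)ˣ)
  have hord : orderOf g = e * t := by
    rw [orderOf_eq_card_of_forall_mem_zpowers hg, Nat.card_eq_fintype_card, ZMod.card_units]
    omega
  have hpos : 0 < e * t := by have := (Fact.out : p.Prime).two_le; omega
  have ht : 0 < t := Nat.pos_of_mul_pos_left hpos
  have hprim : IsPrimitiveRoot ((g : ZMod p) ^ e) t :=
    IsPrimitiveRoot.pow hpos (IsPrimitiveRoot.coe_units_iff.2 (hord ▸ IsPrimitiveRoot.orderOf g)) rfl
  have h1 := X_pow_sub_one_eq_prod ht hprim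
  have h2 := congrArg (Polynomial.reverse) h1
  let rev : Polynomial (ZMod p) →* Polynomial (ZMod p) :=
    { toFun := Polynomial.reverse
      map_one' := by rw [← C_1, reverse_C]
      map_mul' := reverse_mul_of_domain }
  have h3 : ∀ (m : ℕ) (ζ : ZMod p), 0 < m →
      (X ^ m - C ζ : Polynomial (ZMod p)).reverse = 1 - C ζ * X ^ m := by
    intro m ζ hm
    rw [Polynomial.reverse, natDegree_X_pow_sub_C, reflect_sub, reflect_C,
      show (X : Polynomial (ZMod p)) ^ m = C 1 * X ^ m by simp, reflect_C_mul_X_pow,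
      revAt_le le_rfl, Nat.sub_self]
    simp
  change rev _ = rev _ at h2
  rw [map_prod] at h2
  have h4 : rev (X ^ t - 1) = 1 - X ^ t := by
    show (X ^ t - 1 : Polynomial (ZMod p)).reverse = _
    rw [← C_1, h3 t 1 ht]
    simp
  rw [h4] at h2
  rw [h2]
  refine prod_congr rfl fun ζ _ => ?_
  show _ = (X - C ζ : Polynomial (ZMod p)).reverse
  have h5 := h3 1 ζ one_pos
  rw [pow_one] at h5
  rw [h5]

/-- A polynomial of degree below `p - 1` vanishing on the nonzero residues is zero. -/
theorem eq_zero_of_vanish {Q : Polynomial (ZMod p)} (hdeg : Q.natDegree + 1 < p)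
    (h : ∀ b : ZMod p, b ≠ 0 → Q.eval b = 0) : Q = 0 :=
  eq_zero_of_natDegree_lt_card_of_eval_eq_zero' Q (Finset.univ.erase 0)
    (fun b hb => h b (ne_of_mem_erase hb)) (by
      rw [card_erase_of_mem (mem_univ _), card_univ, ZMod.card]; omega)

/-- Some translate meets some coset fewer than `k` times. -/
theorem exists_cyc_lt (hp : e * t + 1 = p) (he : 0 < e) (ht : 1 < t) {k : ℕ} (hk1 : 0 < k)
    (hk : e + 2 ≤ k * t + t) : ∃ b c : ZMod p, b ≠ 0 ∧ c ≠ 0 ∧ cyc p e 1 b c < k := by
  classical
  by_contra hall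
  push Not at hall
  have hkt : 0 < k * t := Nat.mul_pos hk1 (by omega)
  have hcardZ : (nthRootsFinset t (1 : ZMod p)).card = t := by
    obtain ⟨g, hg⟩ := IsCyclic.exists_generator (α := (ZMod p)ˣ)
    have hord : orderOf g = e * t := by
      rw [orderOf_eq_card_of_forall_mem_zpowers hg, Nat.card_eq_fintype_card, ZMod.card_units]
      omega
    exact (IsPrimitiveRoot.pow (Nat.mul_pos he (by omega))
      (IsPrimitiveRoot.coe_units_iff.2 (hord ▸ IsPrimitiveRoot.orderOf g)) rfl).card_nthRootsFinset
  -- the coefficient at `i`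
  set i := e - k * t + 1 with hi
  set Φ : Polynomial (Polynomial (ZMod p)) :=
    ∏ g ∈ roots p e, (1 - C ((1 + C g * X) ^ e) * X) with hΦ
  have hq : ∀ g : ZMod p, ((1 + C g * X : Polynomial (ZMod p)) ^ e).natDegree ≤ e := fun g => by
    refine natDegree_pow_le.trans (mul_le_of_le_one_right e.zero_le ?_)
    exact (natDegree_add_le _ _).trans (max_le (by simp)
      ((natDegree_C_mul_le _ _).trans natDegree_X_le))
  have hB : Bounded e Φ := Bounded.prod fun g _ => Bounded.one_sub (hq g)
  have hev : ∀ b : ZMod p, Φ.map (evalRingHom b) =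
      ∏ g ∈ roots p e, (1 - C ((1 + b * g) ^ e) * X) := by
    intro b
    rw [hΦ, Polynomial.map_prod]
    refine prod_congr rfl fun g _ => ?_
    simp only [Polynomial.map_sub, Polynomial.map_one, Polynomial.map_mul, map_C, map_X,
      coe_evalRingHom, eval_pow, eval_add, eval_one, eval_mul, eval_C, eval_X, mul_comm g b]
  have hzero : Φ.coeff i = 0 := by
    refine eq_zero_of_vanish ?_ fun b hb => ?_
    · have := hB i
      have : e * i ≤ e * (t - 1) := Nat.mul_le_mul_left _ (show i ≤ t - 1 by omega)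
      have : e * (t - 1) + e = e * t := by rw [← Nat.mul_succ]; congr 1; omega
      omega
    rw [← coe_evalRingHom, ← coeff_map, hev]
    obtain ⟨U, -, hUc, hU⟩ := prod_eq_pow_mul ((roots p e)) (nthRootsFinset t (1 : ZMod p))
      (fun g => (1 + b * g) ^ e) k fun ζ hζ => by
        obtain ⟨c, hc, hce⟩ := exists_neg_pow_eq hp ((mem_nthRootsFinset (show 0 < t by omega) (1 : ZMod p)).1 hζ)
        rw [← hce, ← cyc_eq_card he hc]
        exact hall b c hb hc
    rw [hU (fun x => 1 - C x * X), prod_one_sub_roots hp]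
    rw [card_roots hp, hcardZ] at hUc
    obtain ⟨R, hR⟩ : (X : Polynomial (ZMod p)) ^ t ∣ (1 - X ^ t) ^ k - 1 := by
      have h := sub_dvd_pow_sub_pow (1 - X ^ t : Polynomial (ZMod p)) 1 k
      rw [one_pow, show (1 - X ^ t - 1 : Polynomial (ZMod p)) = -(X ^ t) by ring, neg_dvd] at h
      exact h
    rw [eq_add_of_sub_eq hR, add_mul, one_mul, coeff_add, mul_assoc, coeff_X_pow_mul',
      if_neg (show ¬ t ≤ i by omega), zero_add]
    refine coeff_eq_zero_of_natDegree_lt (lt_of_le_of_lt ((natDegree_prod_le _ _).trans ?_)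
      (show U.card < i by omega))
    refine (sum_le_card_nsmul _ _ 1 fun g _ => ?_).trans (by simp)
    exact (natDegree_sub_le _ _).trans (max_le (by simp)
      ((natDegree_C_mul_le _ _).trans natDegree_X_le))
  have h0 := congrArg (eval (0 : ZMod p)) hzero
  rw [← coe_evalRingHom, ← coeff_map, hev, map_zero] at h0
  simp only [zero_mul, add_zero, one_pow, map_one, one_mul, prod_const, card_roots hp] at h0
  rw [sub_eq_neg_add, ← neg_one_mul, show ((-1 : Polynomial (ZMod p))) = C (-1) by simp,
    add_pow, finsetSum_coeff] at h0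
  rw [Finset.sum_eq_single i] at h0
  · simp only [mul_pow, one_pow, mul_one, ← map_pow] at h0
    rw [mul_assoc, coeff_C_mul, ← C_eq_natCast, coeff_mul_C, coeff_X_pow, if_pos rfl, one_mul] at h0
    rcases mul_eq_zero.1 h0 with h | h
    · simp at h
    · rw [ZMod.natCast_eq_zero_iff] at h
      refine absurd h ((Fact.out : p.Prime).coprime_iff_not_dvd.1 ?_)
      refine (Fact.out : p.Prime).coprime_choose_of_lt ?_ (by omega)
      have := Nat.le_mul_of_pos_right e (show 0 < t by omega)
      omega
  · intro j _ hj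
    simp only [mul_pow, one_pow, mul_one, ← map_pow]
    rw [mul_assoc, coeff_C_mul, ← C_eq_natCast, coeff_mul_C, coeff_X_pow, if_neg hj.symm]
    simp
  · intro h; simp at h; omega

/-- Some translate meets some coset more than `k` times. -/
theorem exists_cyc_gt (hp : e * t + 1 = p) (he : 0 < e) (ht : 3 ≤ t) {k : ℕ}
    (hk : k * t + 3 ≤ e + t) : ∃ b c : ZMod p, b ≠ 0 ∧ c ≠ 0 ∧ k < cyc p e 1 b c := by
  classical
  by_contra hall
  push Not at hall
  set i := (k * t + 2) - e with hi
  set i' := max i 1 with hi'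
  set Ψ : Polynomial (Polynomial (ZMod p)) :=
    ∏ g ∈ roots p e, ∑ j ∈ range t, (C ((1 + C g * X) ^ e) * X) ^ j with hΨ
  have hq : ∀ g : ZMod p, ((1 + C g * X : Polynomial (ZMod p)) ^ e).natDegree ≤ e := fun g => by
    refine natDegree_pow_le.trans (mul_le_of_le_one_right e.zero_le ?_)
    exact (natDegree_add_le _ _).trans (max_le (by simp)
      ((natDegree_C_mul_le _ _).trans natDegree_X_le))
  have hB : Bounded e Ψ :=
    Bounded.prod fun g _ => Bounded.sum fun j _ => Bounded.pow_monomial _ (hq g) j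
  have hev : ∀ b : ZMod p, Ψ.map (evalRingHom b) =
      ∏ g ∈ roots p e, ∑ j ∈ range t, (C ((1 + b * g) ^ e) * X) ^ j := by
    intro b
    rw [hΨ, Polynomial.map_prod]
    refine prod_congr rfl fun g _ => ?_
    simp [Polynomial.map_sum, mul_comm (C g) (C b)]
  have hzero : Ψ.coeff i' = 0 := by
    refine eq_zero_of_vanish ?_ fun b hb => ?_
    · have := hB i'
      have : e * i' ≤ e * (t - 1) := Nat.mul_le_mul_left _ (by omega)
      have : e * (t - 1) + e = e * t := by rw [← Nat.mul_succ]; congr 1; omega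
      omega
    rw [← coe_evalRingHom, ← coeff_map, hev]
    set Z := nthRootsFinset t (1 : ZMod p) with hZ
    set S := (roots p e).filter fun g => 1 + b * g ≠ 0 with hS
    set n := fun ζ => (S.filter fun g => (1 + b * g) ^ e = ζ).card with hn
    have hmaps : ∀ g ∈ S, (1 + b * g) ^ e ∈ Z := fun g hg => by
      rw [hZ, mem_nthRootsFinset (by omega), ← pow_mul, show e * t = p - 1 by omega,
        ZMod.pow_card_sub_one_eq_one (mem_filter.1 hg).2]
    have hnk : ∀ ζ ∈ Z, n ζ ≤ k := fun ζ hζ => by
      obtain ⟨c, hc, hce⟩ := exists_neg_pow_eq hp ((mem_nthRootsFinset (by omega) (1 : ZMod p)).1 hζ)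
      refine le_trans ?_ (hall b c hb hc)
      rw [cyc_eq_card he hc, ← hce]
      exact card_le_card (filter_subset_filter _ (filter_subset _ _))
    set A : Polynomial (ZMod p) := ∏ g ∈ S, (1 - C ((1 + b * g) ^ e) * X) with hA
    set R : Polynomial (ZMod p) := ∏ ζ ∈ Z, (1 - C ζ * X) ^ (k - n ζ) with hR
    have hAR : A * R = (1 - X ^ t) ^ k := by
      rw [← prod_one_sub_roots hp, hA, ← prod_fiberwise_of_maps_to hmaps, hR,
        ← prod_mul_distrib, ← prod_pow]
      refine prod_congr rfl fun ζ hζ => ?_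
      rw [prod_congr rfl fun g hg => by rw [(mem_filter.1 hg).2], prod_const, ← pow_add,
        Nat.add_sub_cancel' (hnk ζ hζ)]
    have hdegR : R.natDegree < i' := by
      have h1 : R.natDegree ≤ ∑ ζ ∈ Z, (k - n ζ) := by
        refine (natDegree_prod_le _ _).trans (sum_le_sum fun ζ _ => ?_)
        refine natDegree_pow_le.trans (mul_le_of_le_one_right (Nat.zero_le _) ?_)
        exact (natDegree_sub_le _ _).trans (max_le (by simp)
          ((natDegree_C_mul_le _ _).trans natDegree_X_le))
      have h2 : ∑ ζ ∈ Z, (k - n ζ) + S.card = k * t := by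
        rw [card_eq_sum_card_fiberwise hmaps, ← sum_add_distrib,
          sum_congr rfl fun ζ hζ => Nat.sub_add_cancel (hnk ζ hζ), sum_const, smul_eq_mul,
          mul_comm]
        congr 1
        obtain ⟨g, hg⟩ := IsCyclic.exists_generator (α := (ZMod p)ˣ)
        have hord : orderOf g = e * t := by
          rw [orderOf_eq_card_of_forall_mem_zpowers hg, Nat.card_eq_fintype_card, ZMod.card_units]
          omega
        exact (IsPrimitiveRoot.pow (Nat.mul_pos he (by omega))
          (IsPrimitiveRoot.coe_units_iff.2 (hord ▸ IsPrimitiveRoot.orderOf g))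
          rfl).card_nthRootsFinset
      have h3 : e ≤ S.card + 1 := by
        have h4 : ((roots p e).filter fun g => ¬ (1 + b * g ≠ 0)).card ≤ 1 := by
          rw [card_le_one]
          intro x hx y hy
          simp only [mem_filter, not_not] at hx hy
          exact mul_left_cancel₀ hb (add_left_cancel (hx.2.trans hy.2.symm))
        have h6 : S.card = ((roots p e).filter fun g => 1 + b * g ≠ 0).card := rfl
        have h5 := card_filter_add_card_filter_not (s := roots p e) (p := fun g => 1 + b * g ≠ 0)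
        rw [card_roots hp] at h5
        omega
      omega
    set Ψb : Polynomial (ZMod p) :=
      ∏ g ∈ roots p e, ∑ j ∈ range t, (C ((1 + b * g) ^ e) * X) ^ j with hΨb
    have hinv : (X : Polynomial (ZMod p)) ^ t ∣ A * Ψb - 1 := by
      have hmod : ∀ g : ZMod p, (X : Polynomial (ZMod p)) ^ t ∣
          (1 - C ((1 + b * g) ^ e) * X) * (∑ j ∈ range t, (C ((1 + b * g) ^ e) * X) ^ j) - 1 := by
        intro g
        rw [mul_neg_geom_sum, sub_sub_cancel_left, dvd_neg, mul_pow]
        exact dvd_mul_left _ _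
      have hAall : A = ∏ g ∈ roots p e, (1 - C ((1 + b * g) ^ e) * X) := by
        rw [hA, hS, prod_filter]
        refine prod_congr rfl fun g _ => ?_
        split_ifs with h
        · rfl
        · rw [not_not.1 h, zero_pow he.ne', map_zero, zero_mul, sub_zero]
      rw [hAall, hΨb, ← prod_mul_distrib]
      refine Finset.prod_induction _ (fun F => (X : Polynomial (ZMod p)) ^ t ∣ F - 1)
        (fun u v hu hv => ?_) (by simp) fun g _ => hmod g
      rw [show u * v - 1 = (u - 1) * v + (v - 1) by ring]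
      exact dvd_add (hu.mul_right _) hv
    have hdvd : (X : Polynomial (ZMod p)) ^ t ∣ Ψb - R := by
      have h : (X : Polynomial (ZMod p)) ^ t ∣ (1 - X ^ t) ^ k - 1 := by
        have h := sub_dvd_pow_sub_pow (1 - X ^ t : Polynomial (ZMod p)) 1 k
        rw [one_pow, show (1 - X ^ t - 1 : Polynomial (ZMod p)) = -(X ^ t) by ring, neg_dvd] at h
        exact h
      have e1 : Ψb - R = (A * Ψb - 1) * R - ((1 - X ^ t) ^ k - 1) * Ψb := by
        linear_combination Ψb * (-hAR)
      rw [e1]
      exact dvd_sub (hinv.mul_right _) (h.mul_right _)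
    have hc := (X_pow_dvd_iff.1 hdvd) i' (by omega)
    rw [coeff_sub, coeff_eq_zero_of_natDegree_lt hdegR, sub_zero] at hc
    exact hc
  have h0 := congrArg (eval (0 : ZMod p)) hzero
  rw [← coe_evalRingHom, ← coeff_map, hev, map_zero] at h0
  simp only [zero_mul, add_zero, one_pow, map_one, one_mul, prod_const, card_roots hp] at h0
  -- the series of `(1 - X) ^ (-e)`
  have key : ∀ m j : ℕ, j < t →
      ((∑ l ∈ range t, (X : Polynomial (ZMod p)) ^ l) ^ m).coeff j =
        ((m + j - 1).choose j : ℕ) := by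
    intro m
    induction m with
    | zero =>
      intro j _
      rcases Nat.eq_zero_or_pos j with rfl | hj
      · simp
      · rw [pow_zero, coeff_one, if_neg hj.ne', Nat.choose_eq_zero_of_lt (by omega)]
        simp
    | succ m ih =>
      intro j hj
      rw [pow_succ, coeff_mul, Nat.sum_antidiagonal_eq_sum_range_succ
        (fun u v => ((∑ l ∈ range t, (X : Polynomial (ZMod p)) ^ l) ^ m).coeff u *
          (∑ l ∈ range t, (X : Polynomial (ZMod p)) ^ l).coeff v)]
      rw [sum_congr rfl fun u hu => by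
        rw [ih u (lt_of_le_of_lt (Nat.lt_succ_iff.1 (mem_range.1 hu)) hj), finsetSum_coeff,
          sum_eq_single (j - u) (fun l _ hl => by rw [coeff_X_pow, if_neg hl.symm])
            (fun h => absurd (mem_range.2 (by omega)) h), coeff_X_pow, if_pos rfl, mul_one],
        ← Nat.cast_sum]
      congr 1
      rcases Nat.eq_zero_or_pos m with rfl | hm
      · rw [sum_eq_single 0 (fun u _ hu => by rw [Nat.choose_eq_zero_of_lt (by omega)])
          (fun h => absurd (mem_range.2 (Nat.succ_pos j)) h)]
        simp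
      · obtain ⟨m, rfl⟩ : ∃ m', m = m' + 1 := ⟨m - 1, by omega⟩
        have h := Nat.sum_range_add_choose j m
        rw [show m + 1 + 1 + j - 1 = j + m + 1 by omega, ← Nat.choose_symm_of_eq_add
          (show j + m + 1 = (m + 1) + j by omega), ← h]
        refine sum_congr rfl fun u _ => ?_
        rw [show m + 1 + u - 1 = u + m by omega]
        exact (Nat.choose_symm_of_eq_add (by omega)).symm
  rw [key e i' (by omega), ZMod.natCast_eq_zero_iff] at h0
  refine absurd h0 ((Fact.out : p.Prime).coprime_iff_not_dvd.1 ?_)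
  refine (Fact.out : p.Prime).coprime_choose_of_lt ?_ (by omega)
  have : e + t ≤ e * t + 1 := by nlinarith
  omega

end Cfsg.Agent.H82.SmallDeg
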