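import Cfsg.Agent.H82.SmallDeg.Family
import Cfsg.Agent.H82.SmallDeg.OddTrivial

/-!
The bounds on the two families at the small faithful character.
-/

set_option autoImplicit false
set_option maxHeartbeats 1000000
set_option linter.unusedSectionVars false

namespace Cfsg.Agent.H82.SmallDeg

open Finset Matrix IsLocalRing Cfsg.Agent.H43.D1
open Cfsg.Agent.H40.SmallDeg (Piece coset zero_not_mem_coset mem_coset)
open Cfsg.Agent.H42.SmallFaithful (exists_conj_mem)
open Cfsg.Agent.H31.Defect (red toK)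
open Cfsg.Agent.H39.SmallDeg (eProj mult)

attribute [local instance] Fintype.ofFinite Classical.propDecidable

variable {p : ℕ} [hp : Fact p.Prime] {G : Type*} [Group G] [Finite G] (S : Setup p G)

theorem deg_oneIrr : Cfsg.charDegree (H26.oneIrr G).1 = 1 := by
  have h := H43.irr_charDegree_spec (H26.oneIrr G)
  rw [H26.oneIrr_val] at h
  exact_mod_cast h.symm

/-- A central element acts by its character. -/
theorem central_value (hV : ∀ v : S.V, ((v : S.L) : G) ∈ Subgroup.center G) {n : ℕ}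
    (A : G →* Matrix (Fin n) (Fin n) ℂ) (hschur : ∀ Φ : Matrix (Fin n) (Fin n) ℂ,
      (∀ g, Commute Φ (A g)) → ∃ c : ℂ, Φ = c • 1)
    (χ : Cfsg.IrrCharacter G) (htr : ∀ g, (A g).trace = χ.1 g) (θ : Cfsg.IrrCharacter S.V)
    (hθ : χ ∈ S.supp θ) (v : S.V) : A ((v : S.L) : G) = θ.1 v • 1 := by
  obtain ⟨ω, hω⟩ := hschur (A ((v : S.L) : G)) fun g => by
    show _ * _ = _ * _
    rw [← map_mul, ← map_mul, Subgroup.mem_center_iff.1 (hV v) g]
  obtain ⟨c, hc⟩ := S.mem_supp.1 hθ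
  have hval : ∀ (i : (ZMod p)ˣ) (w : S.V), χ.1 (S.sing i w) = S.sv χ θ (i : ZMod p) * θ.1 w := by
    intro i w
    rw [Setup.sing, S.value_eq_sum_sv, sum_eq_single θ (fun η _ hη => by
      rw [S.sv_eq_zero_of_not_mem_orb hθ (by rw [(stabImage_eq S hV θ).2]; simpa using hη), zero_mul])
      (fun h => absurd (mem_univ _) h)]
  obtain ⟨i, hi⟩ : ∃ i : (ZMod p)ˣ, S.sv χ θ (i : ZMod p) ≠ 0 := by
    by_contra h
    push Not at h
    refine hc ?_
    rw [← Int.cast_eq_zero (α := ℂ), S.av_eq_units]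
    simp [h]
  have h1 : χ.1 (S.sing i v) = ω * χ.1 (S.sing i 1) := by
    rw [← htr, ← htr, Setup.sing, Setup.sing, map_mul, hω, Matrix.mul_smul, Matrix.mul_one,
      Matrix.trace_smul, smul_eq_mul, OneMemClass.coe_one, OneMemClass.coe_one, mul_one]
  rw [hval, hval, degree_one S hV, mul_one, mul_comm ω] at h1
  rw [hω, mul_left_cancel₀ hi h1]

/-- The values of a member of degree one. -/
theorem linear_values (hV : ∀ v : S.V, ((v : S.L) : G) ∈ Subgroup.center G)
    {θ : Cfsg.IrrCharacter S.V} (F : Fam S θ) {ψ : Cfsg.IrrCharacter G} (hψ : ψ ∈ F.const)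
    (h1 : Cfsg.charDegree ψ.1 = 1) (h2 : 2 < p) :
    F.b ψ = 1 ∧ ∃ μ : G →* ℂˣ, (∀ g, ψ.1 g = (μ g : ℂ)) ∧ μ S.x = 1 ∧
      ∀ v : S.V, ((μ ((v : S.L) : G) : ℂˣ) : ℂ) = θ.1 v := by
  have hψs := (mem_sdiff.1 hψ).1
  obtain ⟨μ, hμ⟩ := H38.exists_hom_of_linear (H26.irr_isCharacter ψ)
    (by rw [H43.irr_charDegree_spec, h1, Nat.cast_one])
  have hval : ∀ (i : (ZMod p)ˣ) (w : S.V), ψ.1 (S.sing i w) = (F.b ψ : ℂ) * θ.1 w := by
    intro i w
    rw [Setup.sing, S.value_eq_sum_sv, sum_eq_single θ (fun η _ hη => by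
      rw [S.sv_eq_zero_of_not_mem_orb hψs (by rw [(stabImage_eq S hV θ).2]; simpa using hη), zero_mul])
      (fun h => absurd (mem_univ _) h), F.sv_const hψ]
  have hx : ((μ S.x : ℂˣ) : ℂ) = F.b ψ := by
    have h := hval 1 1
    rw [Setup.sing, degree_one S hV, mul_one, OneMemClass.coe_one, OneMemClass.coe_one, mul_one,
      Units.val_one, ZMod.val_one, pow_one, hμ] at h
    exact h
  have hpow : ((μ S.x : ℂˣ) : ℂ) ^ p = 1 := by
    rw [← Units.val_pow_eq_pow_val, ← map_pow, S.x_pow_p, map_one, Units.val_one]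
  have hb : F.b ψ = 1 := by
    rcases F.b_const hψ with h | h
    · exact h
    · exfalso
      rw [hx, h, Int.cast_neg, Int.cast_one, (hp.out.odd_of_ne_two (by omega)).neg_one_pow] at hpow
      norm_num at hpow
  refine ⟨hb, μ, fun g => congrFun hμ g, Units.ext (by rw [hx, hb]; simp), fun v => ?_⟩
  have h := hval 1 v
  rw [Setup.sing, hb, Int.cast_one, one_mul, Units.val_one, ZMod.val_one, pow_one, hμ] at h
  simpa [hx, hb] using h

variable {O : ValuationSubring ℂ} {d : ℕ} {R : G →* Matrix (Fin d) (Fin d) O} {c₀ : (ZMod p)ˣ}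

/-- The value at an element of the complement moving `x` is the weight. -/
theorem value_moving (H : Piece S O R c₀) (χ : Cfsg.IrrCharacter G)
    (htr : ∀ g, (toK O (Fin d) (R g)).trace = χ.1 g) (l : S.L) (hl : S.act l ≠ 1) :
    χ.1 (l : G) ≠ 0 := by
  obtain ⟨T, -, -, -, hE, -⟩ := H.exists_weight
  set A := (toK O (Fin d)).toMonoidHom.comp R with hA
  have hne : eProj S.x A (0 : ZMod p) ≠ 0 := fun h0 => by
    have h := H.mult 0
    rw [if_neg (zero_not_mem_coset S c₀), H39.SmallDeg.mult, h0, Matrix.rank_zero] at h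
    exact zero_ne_one h
  have h1 : χ.1 (l : G) = (T l : ℂ) := by
    have hd : χ.1 (l : G) = ∑ c : ZMod p, (A (l : G) * eProj S.x A c).trace := by
      rw [← Matrix.trace_sum, ← Finset.mul_sum, H39.SmallDeg.sum_eProj, mul_one]
      exact (htr _).symm
    rw [hd, sum_eq_single (0 : ZMod p)]
    · show (toK O (Fin d) (R (l : G)) * eProj S.x A 0).trace = _
      rw [hE, Matrix.trace_smul, H31.Defect.trace_idem (H39.SmallDeg.eProj_idem S.orderOf_x 0),
        show (eProj S.x A (0 : ZMod p)).rank = 1 by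
          have h := H.mult 0
          rwa [if_neg (zero_not_mem_coset S c₀)] at h,
        Nat.cast_one, smul_eq_mul, mul_one]
    · intro c _ hc
      have hcomm := H39.SmallDeg.conj_eProj (A := A) S.orderOf_x (S.act l).ne_zero (S.act_spec l) c
      have hne' : c ≠ ((S.act l : ZMod p))⁻¹ * c := by
        intro h
        refine hl (Units.ext ?_)
        have h2 : (S.act l : ZMod p) * c = c := by
          conv_lhs => rw [h]
          rw [← mul_assoc, mul_inv_cancel₀ (S.act l).ne_zero, one_mul]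
        exact (mul_eq_right₀ hc).1 h2
      rw [← H39.SmallDeg.eProj_idem (A := A) S.orderOf_x c, ← mul_assoc, Matrix.trace_mul_comm,
        hcomm, ← mul_assoc, H39.SmallDeg.eProj_mul S.orderOf_x, if_neg hne', zero_mul,
        Matrix.trace_zero]
    · exact fun h => absurd (mem_univ _) h
  rw [h1]
  intro h0
  have h2 : T l * T l⁻¹ = 1 := by rw [← map_mul, mul_inv_cancel, map_one]
  rw [show T l = 0 from Subtype.ext h0, zero_mul] at h2
  exact zero_ne_one h2

/-- The bounds. -/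
theorem exists_bounds (H : Piece S O R c₀) (χ : Cfsg.IrrCharacter G)
    (htr : ∀ g, (toK O (Fin d) (R g)).trace = χ.1 g) (hnn : ¬ S.P.Normal)
    (hV : ∀ v : S.V, ((v : S.L) : G) ∈ Subgroup.center G) {e t : ℕ}
    (he : Nat.card S.act.range = e) (hpe : e * t + 1 = p) (he3 : 3 ≤ e) (hodd : Odd e)
    (ht : 4 ≤ t) :
    ∃ s0 s σ : ℝ, s0 ≤ 1 + ((e : ℝ) - 1) / ((p : ℝ) + 1) ∧ |s| ≤ (e : ℝ) / ((p : ℝ) - 1) ∧
      (s0 ≤ 1 + ((e : ℝ) - 2) / ((p : ℝ) + 1) ∨
        σ ≤ 1 / (((e : ℝ) - 1) * ((p : ℝ) + 1) + 1)) ∧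
      ∀ b c : ZMod p, b ≠ 0 → c ≠ 0 →
        |s - xc p e b c / ((p : ℝ) - e)| ≤ s0 + σ * xc p e b c := by
  have hrange := H.range
  rw [he] at hrange
  have het : 3 * e + e ≤ e * t := by nlinarith
  have hd3 : 3 * e + 1 ≤ d := by omega
  have hpR : (p : ℝ) = e * t + 1 := by exact_mod_cast hpe.symm
  have hdeg : Cfsg.charDegree χ.1 = d := by
    have h := htr 1
    rw [map_one, map_one, Matrix.trace_one, Fintype.card_fin, H43.irr_charDegree_spec] at h
    exact_mod_cast h.symm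
  have hpd : ¬ p ∣ d := fun h => by
    have := Nat.le_of_dvd (by omega) h
    omega
  obtain ⟨θ, hθ⟩ := S.exists_mem_supp (hdeg.symm ▸ hpd)
  obtain ⟨F⟩ := nonempty_fam S hV θ
  obtain ⟨F₁⟩ := nonempty_fam S hV (H26.oneIrr S.V)
  -- congruences of degrees
  have hcong : ∀ {η : Cfsg.IrrCharacter S.V} (F : Fam S η) {ψ : Cfsg.IrrCharacter G},
      ψ ∈ F.const → ∃ m : ℕ, (Cfsg.charDegree ψ.1 : ℤ) = p * m - ((p : ℤ) - 1) * F.b ψ := by
    intro η F ψ hψ
    obtain ⟨m, hm⟩ := Fam.degree_eq (S := S) hV (mem_sdiff.1 hψ).1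
    rw [F.sum_av_const hψ] at hm
    exact ⟨m, by exact_mod_cast hm⟩
  have hnot : χ ∉ F.const := by
    intro hc
    obtain ⟨m, hm⟩ := hcong F hc
    rw [hdeg] at hm
    have h2 : (d : ℤ) = p - e := by omega
    rcases F.b_const hc with hb | hb <;> rw [hb] at hm
    · have : (p : ℤ) * ((2 : ℤ) - m) = e + 1 := by linear_combination hm - h2
      have h3 : (p : ℤ) ∣ ((e + 1 : ℕ) : ℤ) := ⟨_, by push_cast; exact this.symm⟩
      have := Nat.le_of_dvd (by omega) (Int.natCast_dvd_natCast.1 h3)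
      omega
    · have : (p : ℤ) * ((m : ℤ)) = 1 - e := by linear_combination h2 - hm
      have h3 : (p : ℤ) ∣ ((e - 1 : ℕ) : ℤ) := ⟨-(m : ℤ), by
        rw [Nat.cast_sub (by omega)]; push_cast; linear_combination this⟩
      have := Nat.le_of_dvd (by omega) (Int.natCast_dvd_natCast.1 h3)
      omega
  obtain ⟨j₀, -, hj₀⟩ : ∃ j ∈ (univ : Finset ((ZMod p)ˣ ⧸ S.act.range)), F.e j = χ := by
    have : χ ∈ univ.image F.e := by
      by_contra h
      exact hnot (mem_sdiff.2 ⟨hθ, h⟩)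
    exact mem_image.1 this
  have heps : F.eps = 1 := by
    obtain ⟨m, hm⟩ := Fam.degree_eq (S := S) hV hθ
    rw [← hj₀, F.sum_av_e, he, hj₀, hdeg] at hm
    rcases F.eps_eq with h | h
    · exact h
    · exfalso
      rw [h] at hm
      push_cast at hm
      have hm' : (d : ℤ) = p * m + e := by
        exact_mod_cast (show (d : ℂ) = (p : ℂ) * m + e by rw [hm]; ring)
      have h2 : (d : ℤ) = p - e := by omega
      have h3 : (p : ℤ) ∣ ((2 * e : ℕ) : ℤ) := ⟨1 - m, by push_cast; linear_combination h2 - hm'⟩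
      have := Nat.le_of_dvd (by omega) (Int.natCast_dvd_natCast.1 h3)
      omega
  -- no linear character besides the trivial one in either family
  have hA : ∀ v : S.V, toK O (Fin d) (R ((v : S.L) : G)) = θ.1 v • 1 := fun v =>
    central_value S hV ((toK O (Fin d)).toMonoidHom.comp R) H.schur χ htr θ hθ v
  have hlin₁ : ∀ ψ ∈ F₁.const, ψ ≠ H26.oneIrr G → 2 ≤ Cfsg.charDegree ψ.1 := by
    intro ψ hψ hne
    by_contra h2
    have h1 : Cfsg.charDegree ψ.1 = 1 := by
      have := H43.irr_charDegree_pos ψ; omega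
    obtain ⟨-, μ, hμ, hμx, hμV⟩ := linear_values S hV F₁ hψ h1 (by omega)
    refine hne (Subtype.ext (funext fun g => ?_))
    rw [hμ, H26.oneIrr_val]
    -- `μ χ` has the local data of `χ`
    let φ : Cfsg.IrrCharacter G := ⟨_, H44.isIrrCharacter_linear_mul μ χ⟩
    have hφx : ∀ i : (ZMod p)ˣ, ∀ η : Cfsg.IrrCharacter S.V,
        S.sv φ η (i : ZMod p) = S.sv χ η (i : ZMod p) := by
      intro i η
      simp only [Setup.sv, Cfsg.classInner]
      congr 1
      refine sum_congr rfl fun v _ => ?_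
      show (μ _ : ℂ) * χ.1 _ * _ = χ.1 _ * _
      rw [map_mul, map_pow, hμx, one_pow, one_mul,
        show ((μ ((v : S.L) : G) : ℂˣ) : ℂ) = 1 by rw [hμV, H26.oneIrr_val], one_mul]
    have hav : ∀ c : (ZMod p)ˣ, S.av φ θ (c : ZMod p) = S.av χ θ (c : ZMod p) := by
      intro c
      rw [← Int.cast_inj (α := ℂ), S.av_eq_units, S.av_eq_units]
      simp only [hφx]
    have hφ : φ = χ := by
      by_contra hne'
      obtain ⟨r, hr⟩ := QuotientGroup.mk_surjective j₀
      have h1' := hav r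
      rw [F.av_eq, F.av_eq χ, ← hj₀, F.b_e, hr, if_pos rfl,
        if_neg (fun h => hne' (by rw [← h, hj₀])), add_zero, zero_add] at h1'
      rcases subsingleton_or_nontrivial ((ZMod p)ˣ ⧸ S.act.range) with hJ | hJ
      · have h5 := Subgroup.card_eq_card_quotient_mul_card_subgroup S.act.range
        rw [Nat.card_eq_fintype_card (α := (ZMod p)ˣ), ZMod.card_units, Nat.card_of_subsingleton j₀,
          he] at h5
        omega
      · obtain ⟨j, hj⟩ := exists_ne j₀
        obtain ⟨r', hr'⟩ := QuotientGroup.mk_surjective j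
        have h2' := hav r'
        rw [F.av_eq, F.av_eq χ, ← hj₀, F.b_e, hr', if_neg (fun h => hj (F.e_inj h)), zero_add,
          h1'] at h2'
        by_cases hje : F.e j = φ
        · have h0 : F.b φ = 0 := hje ▸ F.b_e j
          rw [h1'] at h0
          exact F.eps_ne h0
        · rw [if_neg hje, add_zero] at h2'
          exact F.eps_ne h2'
    have hval : ∀ y : G, (μ y : ℂ) * χ.1 y = χ.1 y := fun y => congrFun (congrArg Subtype.val hφ) y
    -- the kernel contains the normaliser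
    have hL : ∀ l : S.L, μ (l : G) = 1 := by
      have hmov : ∀ l : S.L, S.act l ≠ 1 → μ (l : G) = 1 := fun l hl => Units.ext
        ((mul_eq_right₀ (value_moving S H χ htr l hl)).1 (hval _))
      intro l
      by_cases hl : S.act l = 1
      · refine Units.ext ?_
        rw [hμV ⟨l, hl⟩, H26.oneIrr_val, Units.val_one]
      · exact hmov l hl
    have hN : S.N ≤ μ.ker := by
      intro n hn
      obtain ⟨l, hl, u, hu, rfl⟩ := S.mem_N_iff.1 hn
      obtain ⟨k, rfl⟩ : ∃ k : ℕ, S.x ^ k = u := mem_powers_iff_mem_zpowers.2 hu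
      rw [MonoidHom.mem_ker, map_mul, map_pow, hμx, one_pow, mul_one]
      exact hL ⟨l, hl⟩
    have hker : g ∈ μ.ker := by
      have hxk : g * S.x * g⁻¹ ∈ μ.ker := μ.normal_ker.conj_mem _ hμx g
      have hxk0 : S.x ∈ μ.ker := hμx
      have hdk : p ∣ Nat.card μ.ker := by
        have h := orderOf_dvd_natCard (⟨S.x, hxk0⟩ : μ.ker)
        rwa [Subgroup.orderOf_mk, S.orderOf_x] at h
      have hsqk : ¬ p ^ 2 ∣ Nat.card μ.ker := fun h => S.not_sq (h.trans μ.ker.card_subgroup_dvd_card)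
      obtain ⟨T, hT⟩ := exists_setup hdk hsqk (P := Subgroup.zpowers (⟨S.x, hxk0⟩ : μ.ker)) (by
        rw [Nat.card_zpowers, Subgroup.orderOf_mk, S.orderOf_x])
      obtain ⟨w, hw⟩ := exists_conj_mem T (y := (⟨_, hxk⟩ : μ.ker)) (by
        rw [Subgroup.orderOf_mk, show g * S.x * g⁻¹ = MulAut.conj g S.x from rfl,
          (MulAut.conj g).orderOf_eq, S.orderOf_x])
      rw [hT] at hw
      obtain ⟨k, hk⟩ := Subgroup.mem_zpowers_iff.1 hw
      have hk' : ((w : G) * g) * S.x * ((w : G) * g)⁻¹ = S.x ^ k := by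
        have h2 := congrArg Subtype.val hk
        simp only [Subgroup.coe_zpow, Subgroup.coe_mul, Subgroup.coe_inv] at h2
        rw [h2]; group
      have hwg : (w : G) * g ∈ μ.ker :=
        hN (S.mem_N_of_conj_mem (hk'.symm ▸ Subgroup.zpow_mem _ (Subgroup.mem_zpowers _) k))
      have h6 := μ.ker.mul_mem (μ.ker.inv_mem w.2) hwg
      rwa [inv_mul_cancel_left] at h6
    rw [MonoidHom.mem_ker.1 hker, Units.val_one]
  have hlinθ : ∀ ψ ∈ F.const, 2 ≤ Cfsg.charDegree ψ.1 := by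
    intro ψ hψ
    by_contra h2
    have h1 : Cfsg.charDegree ψ.1 = 1 := by
      have := H43.irr_charDegree_pos ψ; omega
    obtain ⟨-, μ, -, hμx, hμV⟩ := linear_values S hV F hψ h1 (by omega)
    let φ : Cfsg.IrrCharacter G := ⟨_, H44.isIrrCharacter_linear_mul μ⁻¹ χ⟩
    obtain ⟨d', R', htr', -⟩ := H31.Defect.exists_complex_lattice O φ
    have hd' : d' = d := by
      have h := htr' 1
      rw [map_one, map_one, Matrix.trace_one, Fintype.card_fin,
        show φ.1 1 = (μ⁻¹ 1 : ℂˣ) * χ.1 1 from rfl, map_one, Units.val_one, one_mul, ← htr,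
        map_one, map_one, Matrix.trace_one, Fintype.card_fin] at h
      exact_mod_cast h
    subst hd'
    have hmult : ∀ c : ZMod p, mult S.x ((toK O (Fin d')).toMonoidHom.comp R') c =
        mult S.x ((toK O (Fin d')).toMonoidHom.comp R) c := by
      intro c
      refine Nat.cast_injective (R := ℂ) ?_
      rw [H39.SmallDeg.mult_eq S.orderOf_x htr', H39.SmallDeg.mult_eq S.orderOf_x htr]
      congr 1
      refine sum_congr rfl fun i _ => ?_
      congr 1
      show ((μ⁻¹ (S.x ^ i.val) : ℂˣ) : ℂ) * _ = _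
      rw [map_pow, MonoidHom.inv_apply, hμx, inv_one, one_pow, Units.val_one, one_mul]
    have H' : Piece S O R' c₀ :=
      ⟨H.mem, fun Φ hΦ => H31.Defect.schur_of_char φ ((toK O (Fin d')).toMonoidHom.comp R') htr' hΦ,
        H.range, H.two, fun c => by rw [hmult]; exact H.mult c⟩
    refine odd_case_trivial S H' φ htr' (he ▸ hodd) fun v => ?_
    obtain ⟨ω, hω⟩ := H'.schur (toK O (Fin d') (R' ((v : S.L) : G))) fun g => by
      show _ * _ = _ * _
      rw [← map_mul, ← map_mul, ← map_mul, ← map_mul, Subgroup.mem_center_iff.1 (hV v) g]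
    have h3 := htr' ((v : S.L) : G)
    rw [hω, Matrix.trace_smul, Matrix.trace_one, Fintype.card_fin,
      show φ.1 ((v : S.L) : G) = (μ⁻¹ ((v : S.L) : G) : ℂˣ) * χ.1 ((v : S.L) : G) from rfl,
      ← htr ((v : S.L) : G), hA, Matrix.trace_smul, Matrix.trace_one, Fintype.card_fin,
      MonoidHom.inv_apply, Units.val_inv_eq_inv_val, hμV, smul_eq_mul, smul_eq_mul, ← mul_assoc,
      inv_mul_cancel₀ (fun h0 => by have := norm_value S θ (degree_one S hV θ) v; simp [h0] at this),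
      one_mul] at h3
    rw [hω, (mul_eq_right₀ (Nat.cast_ne_zero.2 (by omega : d' ≠ 0))).1 h3, one_smul]
  -- the sums
  have hbound : ∀ {η : Cfsg.IrrCharacter S.V} (F : Fam S η) {ψ : Cfsg.IrrCharacter G},
      ψ ∈ F.const → 2 ≤ Cfsg.charDegree ψ.1 →
        (F.b ψ = 1 ∧ (p : ℝ) + 1 ≤ Cfsg.charDegree ψ.1) ∨
          (F.b ψ = -1 ∧ (p : ℝ) - 1 ≤ Cfsg.charDegree ψ.1) := by
    intro η F ψ hψ h2
    obtain ⟨m, hm⟩ := hcong F hψ
    have hp1 : (1 : ℤ) ≤ p := by exact_mod_cast hp.out.one_le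
    rcases F.b_const hψ with hb | hb <;> rw [hb] at hm
    · refine Or.inl ⟨hb, ?_⟩
      have hm2 : 2 ≤ m := by
        by_contra h
        have : (m : ℤ) ≤ 1 := by exact_mod_cast (show m ≤ 1 by omega)
        have h2' : (2 : ℤ) ≤ Cfsg.charDegree ψ.1 := by exact_mod_cast h2
        nlinarith
      have hm2' : (2 : ℤ) ≤ m := by exact_mod_cast hm2
      have : ((p + 1 : ℕ) : ℤ) ≤ Cfsg.charDegree ψ.1 := by push_cast; nlinarith
      have : p + 1 ≤ Cfsg.charDegree ψ.1 := by exact_mod_cast this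
      exact_mod_cast this
    · refine Or.inr ⟨hb, ?_⟩
      have hm0 : (0 : ℤ) ≤ (p : ℤ) * m := by positivity
      have h3 : (p : ℤ) - 1 ≤ Cfsg.charDegree ψ.1 := by linarith
      have h4 := (Int.cast_le (R := ℝ)).2 h3
      push_cast at h4
      exact h4
  have h1mem : H26.oneIrr G ∈ F₁.const ∧ F₁.b (H26.oneIrr G) = 1 := by
    have hs : ∀ c : (ZMod p)ˣ, S.av (H26.oneIrr G) (H26.oneIrr S.V) (c : ZMod p) = 1 := by
      intro c
      have hsv : ∀ i : (ZMod p)ˣ, S.sv (H26.oneIrr G) (H26.oneIrr S.V) (i : ZMod p) = 1 := fun i => by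
        simp [Setup.sv, Cfsg.classInner, H26.oneIrr_val]
        haveI : Nonempty {l : S.L // S.act l = 1} := ⟨⟨1, map_one _⟩⟩
        exact inv_mul_cancel₀ (Nat.cast_ne_zero.2 Fintype.card_ne_zero)
      rw [← Int.cast_inj (α := ℂ), S.av_eq_units]
      simp only [hsv, one_mul, Int.cast_one, sum_sub_distrib, sum_const, card_univ, ZMod.card_units,
        nsmul_eq_mul, mul_one]
      have h := sum_zmod_eq_sum_units (p := p)
        (fun r => ZMod.stdAddChar (-(r * (c : ZMod p))) - if r = 0 then (1 : ℂ) else 0)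
        (by simp [AddChar.map_zero_eq_one])
      rw [sum_sub_distrib, sum_sub_distrib] at h
      simp only [sum_ite_eq', mem_univ, if_true, Units.ne_zero, if_false, sum_const_zero,
        sub_zero] at h
      have hz : ∑ r : ZMod p, ZMod.stdAddChar (-(r * (c : ZMod p))) = (0 : ℂ) := by
        have h' := sum_stdAddChar (p := p) (-(c : ZMod p))
        simp only [neg_eq_zero, c.ne_zero, if_false, mul_neg] at h'
        exact h'
      rw [← h, hz, Nat.cast_sub hp.out.one_le]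
      have := (Nat.cast_ne_zero (R := ℂ)).2 hp.out.ne_zero
      field_simp
      push_cast
      ring
    have hmem : H26.oneIrr G ∈ S.supp (H26.oneIrr S.V) :=
      S.mem_supp.2 ⟨1, by rw [hs]; exact one_ne_zero⟩
    have hc : H26.oneIrr G ∈ F₁.const := by
      refine mem_sdiff.2 ⟨hmem, fun h => ?_⟩
      obtain ⟨j, -, hj⟩ := mem_image.1 h
      obtain ⟨r, hr⟩ := QuotientGroup.mk_surjective j
      rcases subsingleton_or_nontrivial ((ZMod p)ˣ ⧸ S.act.range) with hJ | hJ
      · have h5 := Subgroup.card_eq_card_quotient_mul_card_subgroup S.act.range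
        rw [Nat.card_eq_fintype_card (α := (ZMod p)ˣ), ZMod.card_units, Nat.card_of_subsingleton j₀,
          he] at h5
        omega
      · obtain ⟨j', hj'⟩ := exists_ne j
        obtain ⟨r', hr'⟩ := QuotientGroup.mk_surjective j'
        have h5 := hs r'
        rw [F₁.av_eq, ← hj, F₁.b_e, hr', if_neg (fun h => hj' (F₁.e_inj h)), add_zero] at h5
        exact zero_ne_one h5
    exact ⟨hc, by rw [← F₁.av_const hc 1, hs]⟩
  obtain ⟨D₁, hD₁⟩ : ∃ D₁, ∀ j, Cfsg.charDegree (F₁.e j).1 = D₁ :=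
    ⟨_, fun j => F₁.degree_e_eq j 1⟩
  have hD : ∀ j, Cfsg.charDegree (F.e j).1 = d := fun j => by
    rw [F.degree_e_eq j j₀, hj₀, hdeg]
  set rest := F₁.const.erase (H26.oneIrr G) with hrest
  have hrest_card : (rest.card : ℝ) = (e : ℝ) - 1 := by
    rw [hrest, card_erase_of_mem h1mem.1, F₁.card_const, he, Nat.cast_sub (by omega), Nat.cast_one]
  have hp1R : (0 : ℝ) < (p : ℝ) + 1 := by positivity
  have hterm : ∀ ψ ∈ rest, (F₁.b ψ = 1 ∧ (p : ℝ) + 1 ≤ Cfsg.charDegree ψ.1) ∨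
      (F₁.b ψ = -1 ∧ (p : ℝ) - 1 ≤ Cfsg.charDegree ψ.1) := fun ψ hψ =>
    hbound F₁ (mem_of_mem_erase hψ) (hlin₁ ψ (mem_of_mem_erase hψ) (ne_of_mem_erase hψ))
  have hle : ∀ ψ ∈ rest, (F₁.b ψ : ℝ) / Cfsg.charDegree ψ.1 ≤
      if F₁.b ψ = 1 then 1 / ((p : ℝ) + 1) else 0 := by
    intro ψ hψ
    rcases hterm ψ hψ with ⟨hb, hf⟩ | ⟨hb, -⟩ <;> rw [hb]
    · rw [if_pos rfl, Int.cast_one]
      exact one_div_le_one_div_of_le hp1R hf
    · rw [if_neg (by norm_num), Int.cast_neg, Int.cast_one]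
      exact div_nonpos_of_nonpos_of_nonneg (by norm_num) (Nat.cast_nonneg _)
  set s0 := ∑ ψ ∈ F₁.const, (F₁.b ψ : ℝ) / Cfsg.charDegree ψ.1 with hs0
  have hs0le : s0 ≤ 1 + ∑ ψ ∈ rest, if F₁.b ψ = 1 then 1 / ((p : ℝ) + 1) else 0 := by
    rw [hs0, ← add_sum_erase _ _ h1mem.1, h1mem.2, deg_oneIrr, Int.cast_one,
      Nat.cast_one, div_one]
    exact add_le_add le_rfl (sum_le_sum hle)
  rw [← sum_filter, sum_const, nsmul_eq_mul, mul_one_div] at hs0le
  have hfil : ((rest.filter fun ψ => F₁.b ψ = 1).card : ℝ) ≤ (e : ℝ) - 1 := by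
    rw [← hrest_card]
    exact_mod_cast card_filter_le _ _
  refine ⟨s0, ∑ ψ ∈ F.const, (F.b ψ : ℝ) / Cfsg.charDegree ψ.1, -((F₁.eps : ℝ) / D₁),
    ?_, ?_, ?_, ?_⟩
  · refine hs0le.trans (add_le_add le_rfl ?_)
    exact div_le_div_of_nonneg_right hfil hp1R.le
  · have hpm1 : (0 : ℝ) < (p : ℝ) - 1 := by
      rw [hpR, add_sub_cancel_right]
      exact mul_pos (by exact_mod_cast (show 0 < e by omega)) (by exact_mod_cast (show 0 < t by omega))
    refine (abs_sum_le_sum_abs _ _).trans ((sum_le_card_nsmul _ _ (1 / ((p : ℝ) - 1))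
      fun ψ hψ => ?_).trans (le_of_eq (by rw [nsmul_eq_mul, F.card_const, he, mul_one_div])))
    rw [abs_div, Nat.abs_cast, show |(F.b ψ : ℝ)| = 1 by
      rcases F.b_const hψ with h | h <;> rw [h] <;> norm_num]
    refine one_div_le_one_div_of_le hpm1 ?_
    rcases hbound F hψ (hlinθ ψ hψ) with ⟨-, h⟩ | ⟨-, h⟩ <;> linarith
  · by_cases hall : ∀ ψ ∈ rest, F₁.b ψ = 1
    · right
      have hrel := F₁.degree_rel 1
      rw [hD₁, ← add_sum_erase _ _ h1mem.1, h1mem.2, deg_oneIrr, Int.cast_one,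
        Nat.cast_one, mul_one] at hrel
      have hsum : ((e : ℝ) - 1) * ((p : ℝ) + 1) ≤
          ∑ ψ ∈ rest, (F₁.b ψ : ℝ) * Cfsg.charDegree ψ.1 := by
        rw [← hrest_card, ← nsmul_eq_mul, ← sum_const]
        refine sum_le_sum fun ψ hψ => ?_
        rcases hterm ψ hψ with ⟨hb, hf⟩ | ⟨hb, -⟩
        · rw [hb, Int.cast_one, one_mul]; exact hf
        · exact absurd ((hall ψ hψ).symm.trans hb) (by norm_num)
      have hW : 0 < ((e : ℝ) - 1) * ((p : ℝ) + 1) + 1 := by
        have : (3 : ℝ) ≤ e := by exact_mod_cast he3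
        nlinarith
      have hσ : -((F₁.eps : ℝ) / D₁) = 1 / (-((F₁.eps : ℝ) * D₁)) := by
        rcases F₁.eps_eq with h | h <;> rw [h] <;> push_cast <;> ring
      rw [hσ]
      exact one_div_le_one_div_of_le hW (by linarith)
    · left
      push Not at hall
      obtain ⟨ψ, hψ, hb⟩ := hall
      refine hs0le.trans (add_le_add le_rfl (div_le_div_of_nonneg_right ?_ hp1R.le))
      have h7 : (rest.filter fun ψ => F₁.b ψ = 1).card + 1 ≤ rest.card :=
        card_lt_card (filter_ssubset.2 ⟨ψ, hψ, hb⟩)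
      have h8 : ((rest.filter fun ψ => F₁.b ψ = 1).card : ℝ) + 1 ≤ (rest.card : ℝ) := by
        exact_mod_cast h7
      linarith
  · intro b c hb hc
    have h := abs_le_trivial S hV θ F F₁ he hpe hD hD₁ (Units.mk0 b hb) (Units.mk0 c hc)
    simp only [Units.val_mk0, heps, Int.cast_one] at h
    have hdR : (d : ℝ) = (p : ℝ) - e := by
      rw [eq_sub_iff_add_eq]; exact_mod_cast hrange
    rw [hdR] at h
    calc _ = _ := by rw [div_eq_mul_inv, one_div, mul_comm (xc p e b c)]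
      _ ≤ _ := h
      _ = _ := by ring

end Cfsg.Agent.H82.SmallDeg
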