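import Cfsg.Agent.H82.SmallDeg.Periods
import Cfsg.Agent.H40.SmallDeg.Basic
import Cfsg.Agent.H43.D1.FullBlock
import Cfsg.Agent.H38.ClassCoeff
import Cfsg.Agent.H38.Linear
import Cfsg.Agent.H25.CharIntegral

/-!
The family of a character of a central `p'`-centralizer and its class-product sums.
-/

set_option autoImplicit false
set_option maxHeartbeats 1000000
set_option linter.unusedSectionVars false

namespace Cfsg.Agent.H82.SmallDeg

open Finset Cfsg.Agent.H43.D1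
open scoped ComplexConjugate

attribute [local instance] Fintype.ofFinite Classical.propDecidable

variable {p : ℕ} [hp : Fact p.Prime] {G : Type*} [Group G] [Finite G] (S : Setup p G)

theorem degree_one (hV : ∀ v : S.V, ((v : S.L) : G) ∈ Subgroup.center G)
    (θ : Cfsg.IrrCharacter S.V) : θ.1 1 = 1 :=
  H26.irr_one_eq_one_of_comm (G := S.V) (fun a b => Subtype.ext (Subtype.ext
    (Subgroup.mem_center_iff.1 (hV a) ((b : S.L) : G)).symm)) θ

theorem stabImage_eq (hV : ∀ v : S.V, ((v : S.L) : G) ∈ Subgroup.center G)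
    (θ : Cfsg.IrrCharacter S.V) : stabImage S.act θ = S.act.range ∧ S.orb θ = {θ} := by
  have hfix : ∀ l : S.L, kerTwist S.act l θ = θ := fun l => by
    refine Subtype.ext (funext fun v => ?_)
    rw [kerTwist_apply]
    refine congrArg θ.1 (Subtype.ext (Subtype.ext ?_))
    show (l : G) * ((v : S.L) : G) * (l : G)⁻¹ = ((v : S.L) : G)
    rw [Subgroup.mem_center_iff.1 (hV v) (l : G), mul_inv_cancel_right]
  refine ⟨?_, ?_⟩
  · ext a
    constructor
    · rintro ⟨l, rfl, -⟩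
      exact ⟨l, rfl⟩
    · rintro ⟨l, rfl⟩
      exact ⟨l, rfl, hfix l⟩
  · ext η
    simp only [Setup.orb, mem_image, mem_univ, true_and, mem_singleton]
    exact ⟨fun ⟨l, hl⟩ => by rw [← hl, hfix], fun h => ⟨1, by rw [hfix, h]⟩⟩

theorem norm_value (θ : Cfsg.IrrCharacter S.V) (h1 : θ.1 1 = 1) (v : S.V) : ‖θ.1 v‖ = 1 := by
  obtain ⟨f, hf⟩ := H38.exists_hom_of_linear (H26.irr_isCharacter θ) h1
  rw [hf]
  refine Complex.norm_eq_one_of_pow_eq_one (n := orderOf v) ?_ (orderOf_pos v).ne'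
  rw [← Units.val_pow_eq_pow_val, ← map_pow, pow_orderOf_eq_one, map_one, Units.val_one]

/-- The shape of the family of a character of the centralizer. -/
structure Fam (θ : Cfsg.IrrCharacter S.V) where
  e : (ZMod p)ˣ ⧸ S.act.range → Cfsg.IrrCharacter G
  eps : ℤ
  b : Cfsg.IrrCharacter G → ℤ
  e_inj : Function.Injective e
  eps_eq : eps = 1 ∨ eps = -1
  b_e : ∀ j, b (e j) = 0
  av_eq : ∀ χ (c : (ZMod p)ˣ), S.av χ θ (c : ZMod p) =
    b χ + if e (QuotientGroup.mk c) = χ then eps else 0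
  b_eq : ∀ χ, b χ = 0 ∨ b χ = 1 ∨ b χ = -1
  card_supp : (S.supp θ).card = Nat.card ((ZMod p)ˣ ⧸ S.act.range) + Nat.card S.act.range

theorem nonempty_fam (hV : ∀ v : S.V, ((v : S.L) : G) ∈ Subgroup.center G)
    (θ : Cfsg.IrrCharacter S.V) : Nonempty (Fam S θ) := by
  obtain ⟨e, ε, b, he, hε, hbe, hav, hb⟩ := (S.gram_av θ).2 (S.count_main.2.1 θ)
  have h := S.count_main.2.1 θ
  have hst := (stabImage_eq S hV θ).1
  unfold Setup.tN Setup.fN at h
  revert e hbe hav he h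
  rw [hst]
  intro e he hbe hav h
  exact ⟨⟨e, ε, b, he, hε, hbe, hav, hb, h⟩⟩

namespace Fam

variable {S} {θ : Cfsg.IrrCharacter S.V} (F : Fam S θ)

theorem eps_ne : F.eps ≠ 0 := by rcases F.eps_eq with h | h <;> rw [h] <;> norm_num

theorem e_mem (j : (ZMod p)ˣ ⧸ S.act.range) : F.e j ∈ S.supp θ :=
  S.mem_supp.2 ⟨Quotient.out j, by
    rw [F.av_eq, F.b_e, zero_add, QuotientGroup.out_eq', if_pos rfl]; exact F.eps_ne⟩

/-- The members with constant local data. -/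
noncomputable def const : Finset (Cfsg.IrrCharacter G) := S.supp θ \ univ.image F.e

theorem card_const : F.const.card = Nat.card S.act.range := by
  have hsub : univ.image F.e ⊆ S.supp θ := fun χ hχ => by
    obtain ⟨j, -, rfl⟩ := mem_image.1 hχ
    exact F.e_mem j
  rw [const, card_sdiff_of_subset hsub, card_image_of_injective _ F.e_inj, F.card_supp, card_univ,
    ← Nat.card_eq_fintype_card, Nat.add_sub_cancel_left]

theorem av_const {χ : Cfsg.IrrCharacter G} (h : χ ∈ F.const) (c : (ZMod p)ˣ) :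
    S.av χ θ (c : ZMod p) = F.b χ := by
  rw [F.av_eq, if_neg, add_zero]
  intro h'
  exact (mem_sdiff.1 h).2 (h' ▸ mem_image_of_mem _ (mem_univ _))

theorem b_const {χ : Cfsg.IrrCharacter G} (h : χ ∈ F.const) : F.b χ = 1 ∨ F.b χ = -1 := by
  obtain ⟨c, hc⟩ := S.mem_supp.1 (mem_sdiff.1 h).1
  rw [F.av_const h] at hc
  exact (F.b_eq χ).resolve_left hc

theorem sv_const {χ : Cfsg.IrrCharacter G} (h : χ ∈ F.const) (i : (ZMod p)ˣ) :
    S.sv χ θ (i : ZMod p) = (F.b χ : ℂ) := by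
  rw [S.sv_eq_neg_sum, sum_congr rfl fun c _ => by rw [F.av_const h c], ← mul_sum]
  have h1 := sum_zmod_eq_sum_units (p := p)
    (fun c => ZMod.stdAddChar ((i : ZMod p) * c) - if c = 0 then (1 : ℂ) else 0)
    (by simp [AddChar.map_zero_eq_one])
  simp only [mul_comm (i : ZMod p), sum_sub_distrib, sum_stdAddChar, i.ne_zero, if_false,
    sum_ite_eq', mem_univ, if_true, Units.ne_zero, sum_const_zero, sub_zero] at h1
  simp only [mul_comm (i : ZMod p), ← h1]
  ring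

theorem sv_e (j : (ZMod p)ˣ ⧸ S.act.range) (i : (ZMod p)ˣ) :
    S.sv (F.e j) θ (i : ZMod p) = -((F.eps : ℂ) * period S.act.range j i) := by
  rw [S.sv_eq_neg_sum, period, mul_sum, sum_filter]
  congr 1
  refine sum_congr rfl fun c _ => ?_
  rw [F.av_eq, F.b_e, zero_add]
  by_cases h : (QuotientGroup.mk c : (ZMod p)ˣ ⧸ S.act.range) = j
  · rw [if_pos (congrArg F.e h), if_pos h]
  · rw [if_neg (fun h' => h (F.e_inj h')), if_neg h, Int.cast_zero, zero_mul]

theorem sum_av_const {χ : Cfsg.IrrCharacter G} (h : χ ∈ F.const) :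
    ∑ c : (ZMod p)ˣ, (S.av χ θ (c : ZMod p) : ℂ) = ((p : ℂ) - 1) * F.b χ := by
  rw [sum_congr rfl fun c _ => by rw [F.av_const h c], sum_const, card_univ, ZMod.card_units,
    nsmul_eq_mul, Nat.cast_sub hp.out.one_le, Nat.cast_one]

theorem sum_av_e (j : (ZMod p)ˣ ⧸ S.act.range) :
    ∑ c : (ZMod p)ˣ, (S.av (F.e j) θ (c : ZMod p) : ℂ) =
      (F.eps : ℂ) * (Nat.card S.act.range : ℂ) := by
  have h1 : ∀ c : (ZMod p)ˣ, (S.av (F.e j) θ (c : ZMod p) : ℂ) =
      if QuotientGroup.mk c = j then (F.eps : ℂ) else 0 := fun c => by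
    rw [F.av_eq, F.b_e, zero_add]
    by_cases h : (QuotientGroup.mk c : (ZMod p)ˣ ⧸ S.act.range) = j
    · rw [if_pos (congrArg F.e h), if_pos h]
    · rw [if_neg (fun h' => h (F.e_inj h')), if_neg h, Int.cast_zero]
  rw [sum_congr rfl fun c _ => h1 c, ← sum_filter, sum_const, nsmul_eq_mul, mul_comm]
  congr 2
  obtain ⟨r, rfl⟩ := QuotientGroup.mk_surjective j
  rw [Nat.card_eq_fintype_card, ← card_univ]
  exact (card_bij' (fun (g : S.act.range) _ => r * (g : (ZMod p)ˣ))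
    (fun c hc => ⟨r⁻¹ * c, QuotientGroup.eq.1 (mem_filter.1 hc).2.symm⟩)
    (fun g _ => mem_filter.2 ⟨mem_univ _, (QuotientGroup.mk_mul_of_mem r g.2)⟩)
    (fun _ _ => mem_univ _) (fun g _ => Subtype.ext (inv_mul_cancel_left r (g : (ZMod p)ˣ)))
    (fun c _ => mul_inv_cancel_left r c)).symm

/-- The degrees modulo `p`. -/
theorem degree_eq (hV : ∀ v : S.V, ((v : S.L) : G) ∈ Subgroup.center G) {χ : Cfsg.IrrCharacter G}
    (h : χ ∈ S.supp θ) : ∃ m : ℕ, (Cfsg.charDegree χ.1 : ℂ) =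
      (p : ℂ) * m - ∑ c : (ZMod p)ˣ, (S.av χ θ (c : ZMod p) : ℂ) := by
  obtain ⟨m, hm⟩ := S.exists_degree_eq h
  rw [(stabImage_eq S hV θ).2, sum_singleton, degree_one S hV, one_mul, H43.irr_charDegree_spec] at hm
  exact ⟨m, hm⟩

/-- The signed degrees add up. -/
theorem degree_rel (j : (ZMod p)ˣ ⧸ S.act.range) :
    ∑ χ ∈ F.const, (F.b χ : ℝ) * Cfsg.charDegree χ.1 +
      (F.eps : ℝ) * Cfsg.charDegree (F.e j).1 = 0 := by
  obtain ⟨r, rfl⟩ := QuotientGroup.mk_surjective j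
  have h := S.sum_mul_av (g := (1 : G)) (by simpa using hp.out.not_dvd_one) θ (r : ZMod p)
  simp only [H43.irr_charDegree_spec] at h
  rw [← sum_subset (subset_univ (S.supp θ)) fun χ _ hχ => by
    simp only [S.mem_supp, not_exists, not_not] at hχ
    rw [hχ r, Int.cast_zero, mul_zero]] at h
  have hsub : univ.image F.e ⊆ S.supp θ := fun χ hχ => by
    obtain ⟨j, -, rfl⟩ := mem_image.1 hχ
    exact F.e_mem j
  rw [← sum_sdiff hsub, sum_image (fun a _ b _ h => F.e_inj h)] at h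
  have h2 : ∑ j : (ZMod p)ˣ ⧸ S.act.range, (Cfsg.charDegree (F.e j).1 : ℂ) *
      (S.av (F.e j) θ (r : ZMod p) : ℂ) =
      (F.eps : ℂ) * Cfsg.charDegree (F.e (QuotientGroup.mk r)).1 := by
    rw [sum_eq_single (QuotientGroup.mk r : (ZMod p)ˣ ⧸ S.act.range)]
    · rw [F.av_eq, F.b_e, zero_add, if_pos rfl, mul_comm]
    · intro j _ hj
      rw [F.av_eq, F.b_e, zero_add, if_neg (fun h' => hj (F.e_inj h').symm), Int.cast_zero, mul_zero]
    · exact fun h => absurd (mem_univ _) h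
  rw [h2, show S.supp θ \ univ.image F.e = F.const from rfl,
    sum_congr rfl fun χ (hχ : χ ∈ F.const) => by rw [F.av_const hχ r, mul_comm]] at h
  exact_mod_cast h

theorem degree_e_eq (j j' : (ZMod p)ˣ ⧸ S.act.range) :
    Cfsg.charDegree (F.e j).1 = Cfsg.charDegree (F.e j').1 := by
  have h1 := F.degree_rel j
  have h2 := F.degree_rel j'
  have hne : (F.eps : ℝ) ≠ 0 := by exact_mod_cast F.eps_ne
  exact_mod_cast mul_left_cancel₀ hne (show (F.eps : ℝ) * Cfsg.charDegree (F.e j).1 =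
    (F.eps : ℝ) * Cfsg.charDegree (F.e j').1 by linarith)

/-- The class product sum of the family. -/
theorem sum_product (hV : ∀ v : S.V, ((v : S.L) : G) ∈ Subgroup.center G) {e t D : ℕ}
    (he : Nat.card S.act.range = e) (hpe : e * t + 1 = p)
    (hD : ∀ j, Cfsg.charDegree (F.e j).1 = D) (b c : (ZMod p)ˣ) :
    (Nat.card S.V : ℂ)⁻¹ * ∑ v : S.V, conj (θ.1 v) *
      (∑ χ : Cfsg.IrrCharacter G, χ.1 (S.x ^ (((1 : (ZMod p)ˣ) : ZMod p)).val) *
        χ.1 (S.x ^ (b : ZMod p).val) * χ.1 (S.sing c v) / χ.1 1) =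
      (((∑ χ ∈ F.const, (F.b χ : ℝ) / Cfsg.charDegree χ.1) -
        (F.eps : ℝ) / D * xc p e (b : ZMod p) (c : ZMod p) : ℝ) : ℂ) := by
  have hsv : ∀ (χ : Cfsg.IrrCharacter G), (Nat.card S.V : ℂ)⁻¹ * ∑ v : S.V, conj (θ.1 v) *
      χ.1 (S.sing c v) = S.sv χ θ (c : ZMod p) := fun χ => by
    rw [Setup.sv, Cfsg.classInner]
    congr 1
    exact sum_congr rfl fun v _ => mul_comm _ _
  have h1 : (Nat.card S.V : ℂ)⁻¹ * ∑ v : S.V, conj (θ.1 v) *
      (∑ χ : Cfsg.IrrCharacter G, χ.1 (S.x ^ (((1 : (ZMod p)ˣ) : ZMod p)).val) *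
        χ.1 (S.x ^ (b : ZMod p).val) * χ.1 (S.sing c v) / χ.1 1) =
      ∑ χ : Cfsg.IrrCharacter G, χ.1 (S.x ^ (((1 : (ZMod p)ˣ) : ZMod p)).val) *
        χ.1 (S.x ^ (b : ZMod p).val) * S.sv χ θ (c : ZMod p) / χ.1 1 := by
    simp only [← hsv, mul_sum, sum_div]
    rw [sum_comm]
    exact sum_congr rfl fun χ _ => sum_congr rfl fun v _ => by ring
  rw [h1, ← sum_subset (subset_univ (S.supp θ)) fun χ _ hχ => by
    rw [S.not_mem_supp_sv hχ c, mul_zero, zero_div]]
  have hval : ∀ χ ∈ S.supp θ, ∀ i : (ZMod p)ˣ,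
      χ.1 (S.x ^ (i : ZMod p).val) = S.sv χ θ (i : ZMod p) := by
    intro χ hχ i
    have h := S.value_eq_sum_sv χ (i : ZMod p) 1
    rw [sum_eq_single θ (fun η _ hη => by
      rw [S.sv_eq_zero_of_not_mem_orb hχ (by rw [(stabImage_eq S hV θ).2]; simpa using hη), zero_mul])
      (fun h => absurd (mem_univ _) h), degree_one S hV, mul_one, OneMemClass.coe_one,
      OneMemClass.coe_one, mul_one] at h
    exact h
  rw [sum_congr rfl fun χ hχ => by rw [hval χ hχ, hval χ hχ, H43.irr_charDegree_spec]]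
  have hsub : univ.image F.e ⊆ S.supp θ := fun χ hχ => by
    obtain ⟨j, -, rfl⟩ := mem_image.1 hχ
    exact F.e_mem j
  rw [← sum_sdiff hsub, sum_image (fun a _ b _ h => F.e_inj h)]
  rw [show S.supp θ \ univ.image F.e = F.const from rfl]
  have heps : (F.eps : ℂ) * F.eps = 1 := by
    rcases F.eps_eq with h | h <;> rw [h] <;> norm_num
  have h2 : ∑ χ ∈ F.const, S.sv χ θ (((1 : (ZMod p)ˣ) : ZMod p)) * S.sv χ θ (b : ZMod p) *
      S.sv χ θ (c : ZMod p) / (Cfsg.charDegree χ.1 : ℂ) =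
      ∑ χ ∈ F.const, (F.b χ : ℂ) / (Cfsg.charDegree χ.1 : ℂ) := by
    refine sum_congr rfl fun χ hχ => ?_
    rw [F.sv_const hχ, F.sv_const hχ, F.sv_const hχ]
    rcases F.b_const hχ with h | h <;> rw [h] <;> norm_num
  have h3 : ∑ j : (ZMod p)ˣ ⧸ S.act.range, S.sv (F.e j) θ (((1 : (ZMod p)ˣ) : ZMod p)) *
      S.sv (F.e j) θ (b : ZMod p) * S.sv (F.e j) θ (c : ZMod p) /
        (Cfsg.charDegree (F.e j).1 : ℂ) =
      -((F.eps : ℂ) / (D : ℂ) * (xc p e (b : ZMod p) (c : ZMod p) : ℂ)) := by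
    rw [xc, ← sum_period_triple S.act.range he hpe b c, mul_sum, ← sum_neg_distrib]
    refine sum_congr (Finset.ext fun _ => by simp only [mem_univ]) fun j _ => ?_
    rw [F.sv_e, F.sv_e, F.sv_e, hD]
    linear_combination (-(F.eps : ℂ) / (D : ℂ) * (period S.act.range j 1 * period S.act.range j b *
      period S.act.range j c)) * heps
  rw [h2, h3]
  push_cast
  ring

end Fam

/-- The number of factorisations, times both centraliser orders. -/
theorem class_count (a b c : G) : ∃ n : ℕ,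
    (n : ℂ) * (Nat.card (Subgroup.centralizer ({a} : Set G)) : ℂ) *
        (Nat.card (Subgroup.centralizer ({b} : Set G)) : ℂ) =
      (Nat.card G : ℂ) *
        ∑ χ : Cfsg.IrrCharacter G, χ.1 a * χ.1 b * conj (χ.1 c) / χ.1 1 := by
  refine ⟨Nat.card {q : G × G // IsConj a q.1 ∧ IsConj b q.2 ∧ q.1 * q.2 = c}, ?_⟩
  have hcl : ∀ x : G, (Nat.card {y : G // IsConj x y} : ℂ) *
      (Nat.card (Subgroup.centralizer ({x} : Set G)) : ℂ) = (Nat.card G : ℂ) := fun x => by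
    have := (Subgroup.centralizer ({x} : Set G)).index_mul_card
    rw [H25.index_centralizer_eq_card_class] at this
    exact_mod_cast this
  have hG : (Nat.card G : ℂ) ≠ 0 := Nat.cast_ne_zero.2 Nat.card_pos.ne'
  rw [H38.class_coeff]
  have h1 := hcl a
  have h2 := hcl b
  field_simp
  linear_combination (Nat.card {y : G // IsConj b y} : ℂ) *
    (Nat.card (Subgroup.centralizer ({b} : Set G)) : ℂ) *
    (∑ χ : Cfsg.IrrCharacter G, χ.1 a * χ.1 b * conj (χ.1 c) / χ.1 1) * h1 +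
    (Nat.card G : ℂ) *
    (∑ χ : Cfsg.IrrCharacter G, χ.1 a * χ.1 b * conj (χ.1 c) / χ.1 1) * h2

/-- The weighted class counts. -/
theorem exists_weight_count (b c : (ZMod p)ˣ) (v : S.V) : ∃ T : ℝ, 0 ≤ T ∧
    ∑ χ : Cfsg.IrrCharacter G, χ.1 (S.x ^ (((1 : (ZMod p)ˣ) : ZMod p)).val) *
        χ.1 (S.x ^ (b : ZMod p).val) * χ.1 (S.sing c v) / χ.1 1 = (T : ℂ) := by
  obtain ⟨n, hn⟩ := class_count (S.x ^ (((1 : (ZMod p)ˣ) : ZMod p)).val)
    (S.x ^ (b : ZMod p).val) (S.sing c v)⁻¹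
  simp only [H26.irr_inv, Complex.conj_conj] at hn
  refine ⟨n * (Nat.card (Subgroup.centralizer ({S.x ^ (((1 : (ZMod p)ˣ) : ZMod p)).val} : Set G))) *
    (Nat.card (Subgroup.centralizer ({S.x ^ (b : ZMod p).val} : Set G))) / Nat.card G,
    by positivity, ?_⟩
  simp only [Complex.ofReal_div, Complex.ofReal_mul, Complex.ofReal_natCast]
  rw [hn, mul_div_cancel_left₀]
  exact Nat.cast_ne_zero.2 Nat.card_pos.ne'

/-- The trivial family dominates. -/
theorem abs_le_trivial (hV : ∀ v : S.V, ((v : S.L) : G) ∈ Subgroup.center G)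
    (θ : Cfsg.IrrCharacter S.V) (F : Fam S θ) (F₁ : Fam S (H26.oneIrr S.V)) {e t D D₁ : ℕ}
    (he : Nat.card S.act.range = e) (hpe : e * t + 1 = p)
    (hD : ∀ j, Cfsg.charDegree (F.e j).1 = D) (hD₁ : ∀ j, Cfsg.charDegree (F₁.e j).1 = D₁)
    (b c : (ZMod p)ˣ) :
    |(∑ χ ∈ F.const, (F.b χ : ℝ) / Cfsg.charDegree χ.1) -
        (F.eps : ℝ) / D * xc p e (b : ZMod p) (c : ZMod p)| ≤
      (∑ χ ∈ F₁.const, (F₁.b χ : ℝ) / Cfsg.charDegree χ.1) -
        (F₁.eps : ℝ) / D₁ * xc p e (b : ZMod p) (c : ZMod p) := by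
  choose T hT0 hT using exists_weight_count S b c
  have h := F.sum_product hV he hpe hD b c
  have h₁ := F₁.sum_product hV he hpe hD₁ b c
  simp only [hT, H26.oneIrr_val, map_one, one_mul] at h h₁
  rw [← Complex.ofReal_sum, ← Complex.ofReal_natCast, ← Complex.ofReal_inv, ← Complex.ofReal_mul,
    Complex.ofReal_inj] at h₁
  rw [← h₁]
  rw [← Real.norm_eq_abs, ← Complex.norm_real, ← h, norm_mul, norm_inv, Complex.norm_natCast]
  refine mul_le_mul_of_nonneg_left ((norm_sum_le _ _).trans (le_of_eq ?_)) (by positivity)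
  refine sum_congr rfl fun v _ => ?_
  rw [norm_mul, Complex.norm_conj, norm_value S θ (degree_one S hV θ), one_mul, Complex.norm_real,
    Real.norm_eq_abs, abs_of_nonneg (hT0 v)]

end Cfsg.Agent.H82.SmallDeg
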