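import Cfsg.Agent.H82.SmallDeg.Core
import Cfsg.Agent.H82.SmallDeg.Count
import Cfsg.Agent.H82.SmallDeg.Degrees
import Cfsg.Agent.H40.SmallDeg.Main

/-!
A faithful irreducible character of degree below `p - 1` and the number of classes of `p`-elements.
-/

set_option autoImplicit false
set_option maxHeartbeats 1000000
set_option linter.unusedSectionVars false

namespace Cfsg.Agent.H82.SmallDeg

open Matrix IsLocalRing Cfsg.Agent.H43.D1
open Cfsg.Agent.H31.Defect (red toK)
open Cfsg.Agent.H43 (irr_charDegree_spec irr_charDegree_pos)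

attribute [local instance] Fintype.ofFinite Classical.propDecidable

theorem main {p : ℕ} [hp : Fact p.Prime] {G : Type*} [Group G] [Finite G]
    (h7 : 7 < p) (P : Sylow p G) (hP : Nat.card P = p)
    (hnn : ¬ (P : Subgroup G).Normal) (χ : Cfsg.IrrCharacter G)
    (hfaith : ∀ g, χ.1 g = χ.1 1 → g = 1) (hd : Cfsg.charDegree χ.1 + 1 < p) (t : ℕ)
    (ht : Nat.card {c : ConjClasses G // ∃ g : G, ConjClasses.mk g = c ∧ orderOf g = p} = t) :
    (Nonempty ((G ⧸ Subgroup.center G) ≃*
        Matrix.ProjectiveSpecialLinearGroup (Fin 2) (ZMod p)) ∧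
      (2 * Cfsg.charDegree χ.1 = p + 1 ∨ 2 * Cfsg.charDegree χ.1 = p - 1) ∧ t = 2) ∨
      ∃ e : ℕ, Cfsg.charDegree χ.1 + e = p ∧ e + 3 ≤ t ∧ t * e + 1 = p := by
  classical
  set d := Cfsg.charDegree χ.1 with hdd
  have hdiv : p ∣ Nat.card G := hP ▸ Subgroup.card_subgroup_dvd_card _
  have hsq : ¬ p ^ 2 ∣ Nat.card G := fun h => by
    have h2 := P.pow_dvd_card_of_pow_dvd_card h
    rw [hP] at h2
    have := Nat.le_of_dvd hp.out.pos h2
    nlinarith
  have hno : ∀ H : Subgroup G, H.Normal → Nat.card H ≠ p := by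
    intro H hH hc
    refine hnn ?_
    have hHp : IsPGroup p H := IsPGroup.of_card (n := 1) (by rw [hc, pow_one])
    have := P.is_maximal' (P.isPGroup'.to_sup_of_normal_right hHp) le_sup_left
    rw [← Subgroup.eq_of_le_of_card_ge (le_sup_right.trans this.le) (le_of_eq (hP.trans hc.symm))]
    exact hH
  have hchar : Cfsg.IsCharacter G χ.1 := H26.irr_isCharacter χ
  have hlo := Cfsg.Agent.S4503.result p hp.out hdiv hsq hno χ.1 hchar hfaith
  rw [← hdd] at hlo
  obtain ⟨S, hS⟩ := exists_setup hdiv hsq (P := (P : Subgroup G)) hP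
  have hSnn : ¬ S.P.Normal := by rwa [hS]
  have hte := card_classes S
  rw [ht] at hte
  have hlt := range_lt S χ hfaith hd
  rcases Nat.lt_or_ge (2 * d) p with hlt2 | hge
  · have hiso := H42.SmallFaithful.main hdiv hsq hno χ.1 hchar hfaith (by omega)
    refine Or.inl ⟨hiso, Or.inr (by omega), ?_⟩
    have h2 := half_le_range S (by omega) hiso
    have ht0 : 2 ≤ t := by
      by_contra h
      interval_cases t <;> omega
    by_contra hne
    have : 3 * Nat.card S.act.range ≤ t * Nat.card S.act.range :=
      Nat.mul_le_mul_right _ (by omega)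
    omega
  obtain ⟨hV, hde, c₀, hmult⟩ := H40.SmallDeg.shape S hSnn χ hfaith hge hd
  obtain ⟨O, hO⟩ := H44.exists_valuationSubring_natCast_mem p
  obtain ⟨d', R, htr, -⟩ := H31.Defect.exists_complex_lattice O χ
  have hd' : d' = d := by
    have h := htr 1
    rw [map_one, map_one, Matrix.trace_one, Fintype.card_fin, irr_charDegree_spec] at h
    exact_mod_cast h
  subst hd'
  have H : H40.SmallDeg.Piece S O R c₀ :=
    ⟨hO, fun Φ hΦ => H31.Defect.schur_of_char χ ((toK O (Fin _)).toMonoidHom.comp R) htr hΦ,
      hde, by omega, fun c => hmult ((toK O (Fin _)).toMonoidHom.comp R) htr c⟩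
  have hpsl : 2 * d = p + 1 → Nonempty ((G ⧸ Subgroup.center G) ≃*
      Matrix.ProjectiveSpecialLinearGroup (Fin 2) (ZMod p)) := by
    intro h2d
    haveI := isAlgClosed_residueField O
    haveI : CharP (ResidueField O) p := (CharP.charP_iff_prime_eq_zero hp.out).2 (by
      rw [← map_natCast (residue O), residue_eq_zero_iff]; exact hO)
    obtain ⟨n, ρ, -, hρ⟩ := χ.2
    have hn : n = d := by
      have h := irr_charDegree_spec χ
      rw [← congrFun hρ 1, Representation.char_one] at h
      simpa using (show Module.finrank ℂ (Fin n → ℂ) = d by exact_mod_cast h)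
    subst hn
    have hinj : Function.Injective ρ := by
      refine (injective_iff_map_eq_one (ρ : G →* Module.End ℂ _)).2 fun g hg => hfaith g ?_
      rw [← congrFun hρ g, ← congrFun hρ 1, Representation.character, Representation.character, hg,
        map_one ρ]
    refine H40.SmallDeg.psl_of_half_succ S hSnn h7 h2d (by omega) hV ρ hinj
      (Matrix.toLinAlgEquiv'.toMonoidHom.comp ((red O (Fin _)).toMonoidHom.comp R)) ?_
    intro h0
    refine H40.SmallDeg.Piece.red_pow_pred S H (Matrix.toLinAlgEquiv'.injective ?_)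
    rw [map_pow, map_sub, map_one, map_zero]
    exact h0
  set e := Nat.card S.act.range with he
  rcases Nat.even_or_odd e with heven | hodd
  · rcases H40.SmallDeg.Piece.even_case S H χ htr hV heven with h2 | h1
    · rw [← he] at h2
      refine Or.inr ⟨e, hde, ?_, by omega⟩
      rw [h2] at hte ⊢
      have := hp.out.eq_two_or_odd
      have h9 : p ≠ 9 := fun h => by
        have h' := hp.out
        rw [h] at h'
        norm_num at h'
      omega
    · rw [← he] at h1
      refine Or.inl ⟨hpsl (by omega), Or.inl (by omega), ?_⟩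
      have : e * t = e * 2 := by rw [mul_comm]; omega
      exact Nat.eq_of_mul_eq_mul_left Nat.card_pos this
  · have hodd2 := Nat.odd_iff.1 hodd
    have hte2 : t % 2 = 0 := by
      have h := congrArg (· % 2) hte
      simp only [Nat.mul_mod, hodd2, mul_one, Nat.mod_mod] at h
      have := hp.out.eq_two_or_odd
      omega
    rcases Nat.lt_or_ge t 4 with h4 | h4
    · have ht2 : t = 2 := by
        interval_cases t <;> omega
      subst ht2
      exact Or.inl ⟨hpsl (by omega), Or.inl (by omega), rfl⟩
    · refine Or.inr ⟨e, hde, ?_, by omega⟩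
      by_contra hlt3
      have he3 : 3 ≤ e := by omega
      obtain ⟨s0, s, σ, h0, h1, h2, hall⟩ :=
        exists_bounds S H χ htr hSnn hV (e := e) (t := t) rfl (by rw [mul_comm]; omega) he3 hodd h4
      exact core (p := p) (by rw [mul_comm]; omega) hodd he3 (Nat.even_iff.2 hte2) h4 (by omega)
        h0 h1 h2 hall

end Cfsg.Agent.H82.SmallDeg
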