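import Cfsg.Agent.H82.SmallDeg.Cover

/-!
The first two moments of the cyclotomic numbers over all pairs of nonzero residues.
-/

set_option autoImplicit false
set_option maxHeartbeats 800000

namespace Cfsg.Agent.H82.SmallDeg

open Finset

variable {p : ℕ} [Fact p.Prime] {e : ℕ} {t : ℕ}

/-- The nonzero pairs. -/
def pairs (p : ℕ) [Fact p.Prime] : Finset (ZMod p × ZMod p) :=
  (univ.erase 0) ×ˢ (univ.erase 0)

theorem card_pairs : (pairs p).card = (p - 1) * (p - 1) := by
  rw [pairs, card_product, card_erase_of_mem (mem_univ _), card_univ, ZMod.card]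

theorem mem_pairs {q : ZMod p × ZMod p} : q ∈ pairs p ↔ q.1 ≠ 0 ∧ q.2 ≠ 0 := by simp [pairs]

/-- One equation. -/
theorem card_line {g h : ZMod p} (hg : g ≠ 0) (hh : h ≠ 0) :
    ((pairs p).filter fun q => 1 + q.1 * g + q.2 * h = 0).card = p - 2 := by
  have hne : (0 : ZMod p) ≠ -1 / g := by
    rw [ne_comm, Ne, div_eq_zero_iff, not_or]
    exact ⟨by simp, hg⟩
  rw [show p - 2 = ((univ : Finset (ZMod p)) \ {0, -1 / g}).card by
    rw [card_sdiff_of_subset (subset_univ _), card_univ, ZMod.card, card_pair hne]]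
  refine card_bij' (fun q _ => q.1) (fun b _ => (b, -(1 + b * g) / h)) ?_ ?_ ?_ ?_
  · intro q hq
    simp only [mem_filter, mem_pairs] at hq
    simp only [mem_sdiff, mem_univ, true_and, mem_insert, mem_singleton, not_or]
    refine ⟨hq.1.1, fun h0 => mul_ne_zero hq.1.2 hh ?_⟩
    have h1 : 1 + q.1 * g = 0 := by rw [h0, div_mul_cancel₀ _ hg, add_neg_cancel]
    linear_combination hq.2 - h1
  · intro b hb
    simp only [mem_sdiff, mem_univ, true_and, mem_insert, mem_singleton, not_or] at hb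
    simp only [mem_filter, mem_pairs]
    refine ⟨⟨hb.1, div_ne_zero (neg_ne_zero.2 fun h0 => hb.2 ?_) hh⟩, ?_⟩
    · rw [eq_div_iff hg]; linear_combination h0
    · field_simp
      ring
  · intro q hq
    simp only [mem_filter] at hq
    refine Prod.ext rfl ?_
    show -(1 + q.1 * g) / h = q.2
    rw [div_eq_iff hh]
    linear_combination -hq.2
  · intro b _; rfl

/-- Two equations. -/
theorem card_two_lines {g h g' h' : ZMod p} (hne : (g, h) ≠ (g', h')) :
    ((pairs p).filter fun q => 1 + q.1 * g + q.2 * h = 0 ∧ 1 + q.1 * g' + q.2 * h' = 0).card =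
      if g ≠ g' ∧ h ≠ h' ∧ g * h' ≠ g' * h then 1 else 0 := by
  split_ifs with hc
  · obtain ⟨hg, hh, hd⟩ := hc
    have hΔ : g * h' - g' * h ≠ 0 := sub_ne_zero.2 hd
    rw [card_eq_one]
    refine ⟨((h - h') / (g * h' - g' * h), (g' - g) / (g * h' - g' * h)),
      eq_singleton_iff_unique_mem.2 ⟨?_, ?_⟩⟩
    · simp only [mem_filter, mem_pairs]
      refine ⟨⟨div_ne_zero (sub_ne_zero.2 hh) hΔ, div_ne_zero (sub_ne_zero.2 (Ne.symm hg)) hΔ⟩,
        ?_, ?_⟩
      · rw [div_mul_eq_mul_div, div_mul_eq_mul_div, add_assoc, ← add_div, one_add_div hΔ,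
          div_eq_zero_iff]
        left; ring
      · rw [div_mul_eq_mul_div, div_mul_eq_mul_div, add_assoc, ← add_div, one_add_div hΔ,
          div_eq_zero_iff]
        left; ring
    · rintro ⟨b, c⟩ hq
      simp only [mem_filter] at hq
      obtain ⟨-, h1, h2⟩ := hq
      refine Prod.ext ?_ ?_
      · show b = _
        rw [eq_div_iff hΔ]
        linear_combination h' * h1 - h * h2
      · show c = _
        rw [eq_div_iff hΔ]
        linear_combination g * h2 - g' * h1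
  · rw [card_eq_zero, filter_eq_empty_iff]
    rintro ⟨b, c⟩ hq ⟨h1, h2⟩
    rw [mem_pairs] at hq
    obtain ⟨hb, hc'⟩ := hq
    refine hc ⟨fun hgg => ?_, fun hhh => ?_, fun hd => ?_⟩
    · subst hgg
      refine hne (Prod.ext rfl (mul_left_cancel₀ hc' ?_))
      linear_combination h1 - h2
    · subst hhh
      refine hne (Prod.ext (mul_left_cancel₀ hb ?_) rfl)
      linear_combination h1 - h2
    · have hh : h = h' := by linear_combination h * h2 - h' * h1 + b * hd
      subst hh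
      refine hne (Prod.ext (mul_left_cancel₀ hb ?_) rfl)
      linear_combination h1 - h2

theorem sum_cyc (hp : e * t + 1 = p) (he : 0 < e) :
    ∑ q ∈ pairs p, cyc p e 1 q.1 q.2 = e * e * (p - 2) := by
  simp only [cyc, card_filter]
  rw [sum_comm]
  simp only [← card_filter]
  rw [sum_congr rfl fun x hx =>
    card_line (roots_ne_zero he (mem_product.1 hx).1) (roots_ne_zero he (mem_product.1 hx).2),
    sum_const, card_product, card_roots hp, smul_eq_mul]

theorem sum_cyc_sq (hp : e * t + 1 = p) (he : 2 ≤ e) :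
    ∑ q ∈ pairs p, cyc p e 1 q.1 q.2 * cyc p e 1 q.1 q.2 =
      e * e * (p - 2) + e * e * ((e - 1) * (e - 2)) := by
  classical
  set E := roots p e with hE
  have h1 : ∀ q : ZMod p × ZMod p, cyc p e 1 q.1 q.2 * cyc p e 1 q.1 q.2 =
      (((E ×ˢ E) ×ˢ (E ×ˢ E)).filter fun x =>
        1 + q.1 * x.1.1 + q.2 * x.1.2 = 0 ∧ 1 + q.1 * x.2.1 + q.2 * x.2.2 = 0).card := fun q => by
    rw [cyc, ← card_product, ← filter_product]
    try rfl
  simp only [h1, card_filter]
  rw [sum_comm, ← diag_union_offDiag, sum_union (disjoint_diag_offDiag _), sum_diag]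
  congr 1
  · simp only [← card_filter, and_self]
    rw [sum_congr rfl fun x hx => card_line (roots_ne_zero (e := e) (by omega) (mem_product.1 hx).1)
        (roots_ne_zero (e := e) (by omega) (mem_product.1 hx).2),
      sum_const, card_product, card_roots hp, smul_eq_mul]
  · simp only [← card_filter]
    rw [sum_congr rfl fun x hx => card_two_lines (g := x.1.1) (h := x.1.2) (g' := x.2.1)
      (h' := x.2.2) (mem_offDiag.1 hx).2.2, ← card_filter]
    have hone : (1 : ZMod p) ∈ E := mem_roots.2 (one_pow e)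
    rw [show e * e * ((e - 1) * (e - 2)) = ((E ×ˢ E) ×ˢ (E.erase 1).offDiag).card by
      rw [card_product, card_product, offDiag_card, card_erase_of_mem hone, hE, card_roots hp]
      congr 1
      obtain ⟨m, rfl⟩ : ∃ m, e = m + 2 := ⟨e - 2, by omega⟩
      rw [show m + 2 - 1 = m + 1 by omega, show m + 2 - 2 = m by omega]
      exact (Nat.sub_eq_of_eq_add (by ring)).symm]
    symm
    have hnz : ∀ {a : ZMod p}, a ∈ E → a ≠ 0 := fun ha => roots_ne_zero (by omega) ha
    refine card_bij' (fun x _ => ((x.1.1, x.1.2), (x.1.1 * x.2.1, x.1.2 * x.2.2)))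
      (fun y _ => ((y.1.1, y.1.2), (y.2.1 / y.1.1, y.2.2 / y.1.2))) ?_ ?_ ?_ ?_
    · rintro ⟨⟨g, h⟩, ⟨u, v⟩⟩ hx
      simp only [mem_product, mem_offDiag, mem_erase] at hx
      obtain ⟨⟨hg, hh⟩, ⟨hu1, hu⟩, ⟨hv1, hv⟩, huv⟩ := hx
      have hgu : g * u ≠ g := fun h0 => hu1 (mul_left_cancel₀ (hnz hg) (h0.trans (mul_one g).symm))
      have hhv : h * v ≠ h := fun h0 => hv1 (mul_left_cancel₀ (hnz hh) (h0.trans (mul_one h).symm))
      simp only [mem_filter, mem_offDiag, mem_product, Prod.mk.injEq, not_and, hE, mem_roots] at *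
      refine ⟨⟨⟨hg, hh⟩, ⟨by rw [mul_pow, hg, hu, one_mul], by rw [mul_pow, hh, hv, one_mul]⟩,
        fun h0 => hgu (congrArg Prod.fst h0).symm⟩, hgu.symm, hhv.symm, fun h0 => huv ?_⟩
      exact (mul_left_cancel₀ (mul_ne_zero (roots_ne_zero (e := e) (by omega) (mem_roots.2 hg))
        (roots_ne_zero (e := e) (by omega) (mem_roots.2 hh))) (by linear_combination h0)).symm
    · rintro ⟨⟨g, h⟩, ⟨g', h'⟩⟩ hx
      simp only [mem_filter, mem_offDiag, mem_product, mem_erase, hE, mem_roots] at *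
      obtain ⟨⟨⟨hg, hh⟩, ⟨hg', hh'⟩, -⟩, h1, h2, h3⟩ := hx
      have g0 : g ≠ 0 := roots_ne_zero (e := e) (by omega) (mem_roots.2 hg)
      have h0 : h ≠ 0 := roots_ne_zero (e := e) (by omega) (mem_roots.2 hh)
      refine ⟨⟨hg, hh⟩, ⟨fun hq => h1 ?_, by rw [div_pow, hg, hg', div_one]⟩,
        ⟨fun hq => h2 ?_, by rw [div_pow, hh, hh', div_one]⟩, fun hq => h3 ?_⟩
      · exact ((div_eq_one_iff_eq g0).1 hq).symm
      · exact ((div_eq_one_iff_eq h0).1 hq).symm
      · rw [div_eq_div_iff g0 h0] at hq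
        linear_combination -hq
    · rintro ⟨⟨g, h⟩, ⟨u, v⟩⟩ hx
      simp only [mem_product] at hx
      simp [mul_div_cancel_left₀ u (hnz hx.1.1), mul_div_cancel_left₀ v (hnz hx.1.2)]
    · rintro ⟨⟨g, h⟩, ⟨g', h'⟩⟩ hx
      simp only [mem_filter, mem_offDiag, mem_product] at hx
      simp [mul_div_cancel₀ g' (hnz hx.1.1.1), mul_div_cancel₀ h' (hnz hx.1.1.2)]

/-- The shifted numbers `p n - e ^ 2`. -/
def xc (p : ℕ) [Fact p.Prime] (e : ℕ) (b c : ZMod p) : ℝ :=
  (p : ℝ) * cyc p e 1 b c - (e : ℝ) ^ 2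

theorem sum_xc (hp : e * t + 1 = p) (he : 0 < e) :
    ∑ q ∈ pairs p, xc p e q.1 q.2 = -(e : ℝ) ^ 2 := by
  have hp2 := (Fact.out : p.Prime).two_le
  have h := congrArg (Nat.cast (R := ℝ)) (sum_cyc hp he)
  push_cast [Nat.cast_sub hp2] at h
  simp only [xc, sum_sub_distrib, ← mul_sum, h, sum_const, card_pairs, nsmul_eq_mul]
  push_cast [Nat.cast_sub (show 1 ≤ p by omega)]
  ring

theorem sum_xc_sq (hp : e * t + 1 = p) (he : 2 ≤ e) :
    ∑ q ∈ pairs p, xc p e q.1 q.2 ^ 2 =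
      (p : ℝ) ^ 3 * (e : ℝ) ^ 2 - 3 * (p : ℝ) ^ 2 * (e : ℝ) ^ 3 + 2 * p * (e : ℝ) ^ 4 +
        (e : ℝ) ^ 4 := by
  have hp2 := (Fact.out : p.Prime).two_le
  have h := congrArg (Nat.cast (R := ℝ)) (sum_cyc hp (show 0 < e by omega))
  have h' := congrArg (Nat.cast (R := ℝ)) (sum_cyc_sq hp he)
  push_cast [Nat.cast_sub hp2, Nat.cast_sub he, Nat.cast_sub (show 1 ≤ e by omega)] at h h'
  have e1 : ∀ q : ZMod p × ZMod p, xc p e q.1 q.2 ^ 2 =
      (p : ℝ) ^ 2 * ((cyc p e 1 q.1 q.2 : ℝ) * (cyc p e 1 q.1 q.2 : ℝ)) -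
        2 * p * (e : ℝ) ^ 2 * (cyc p e 1 q.1 q.2 : ℝ) + (e : ℝ) ^ 4 := fun q => by
    simp only [xc]; ring
  simp only [e1, sum_add_distrib, sum_sub_distrib, ← mul_sum, h, h', sum_const, card_pairs,
    nsmul_eq_mul]
  push_cast [Nat.cast_sub (show 1 ≤ p by omega)]
  ring

end Cfsg.Agent.H82.SmallDeg
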