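import Cfsg.Agent.H82.SmallDeg.Moments
import Cfsg.Agent.H43.D1.Local
import Mathlib.NumberTheory.LegendreSymbol.AddCharacter
import Mathlib.Analysis.SpecialFunctions.Complex.CircleAddChar

/-!
The triple sums of the periods.
-/

set_option autoImplicit false

namespace Cfsg.Agent.H82.SmallDeg

open Finset

attribute [local instance] Fintype.ofFinite Classical.propDecidable

variable {p : ℕ} [Fact p.Prime] (A : Subgroup (ZMod p)ˣ)

/-- The period of a coset. -/
noncomputable def period (j : (ZMod p)ˣ ⧸ A) (i : (ZMod p)ˣ) : ℂ :=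
  ∑ c ∈ (univ : Finset (ZMod p)ˣ).filter (fun c => QuotientGroup.mk c = j),
    ZMod.stdAddChar ((i : ZMod p) * (c : ZMod p))

theorem roots_eq_image {e t : ℕ} (hA : Nat.card A = e) (hp : e * t + 1 = p) :
    (univ : Finset A).image (fun g : A => ((g : (ZMod p)ˣ) : ZMod p)) = roots p e := by
  have hinj : Function.Injective fun g : A => ((g : (ZMod p)ˣ) : ZMod p) :=
    fun g h hgh => Subtype.ext (Units.ext hgh)
  refine eq_of_subset_of_card_le ?_ (le_of_eq ?_)
  · intro x hx
    obtain ⟨g, -, rfl⟩ := mem_image.1 hx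
    have h := congrArg (fun a : A => ((a : (ZMod p)ˣ) : ZMod p))
      (pow_card_eq_one' (G := A) (x := g))
    rw [hA] at h
    simpa [mem_roots] using h
  · rw [card_roots hp, card_image_of_injective _ hinj, card_univ, ← Nat.card_eq_fintype_card, hA]

theorem period_mk (r i : (ZMod p)ˣ) :
    period A (QuotientGroup.mk r) i =
      ∑ g : A, ZMod.stdAddChar ((i : ZMod p) * ((r : ZMod p) * ((g : (ZMod p)ˣ) : ZMod p))) := by
  unfold period
  refine Finset.sum_bij' (fun c hc => (⟨r⁻¹ * c, QuotientGroup.eq.1 (mem_filter.1 hc).2.symm⟩ : A))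
    (fun g _ => r * (g : (ZMod p)ˣ)) (fun _ _ => mem_univ _) ?_ ?_ ?_ ?_
  · intro g _
    refine mem_filter.2 ⟨mem_univ _, QuotientGroup.eq.2 ?_⟩
    rw [mul_inv_rev, inv_mul_cancel_right]
    exact A.inv_mem g.2
  · intro c _; exact mul_inv_cancel_left r c
  · intro g _; exact Subtype.ext (inv_mul_cancel_left r (g : (ZMod p)ˣ))
  · intro c _
    congr 2
    rw [← Units.val_mul, mul_inv_cancel_left]

/-- The triple sum of the periods. -/
theorem sum_period_triple {e t : ℕ} (hA : Nat.card A = e) (hp : e * t + 1 = p)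
    (b c : (ZMod p)ˣ) :
    ∑ j, period A j 1 * period A j b * period A j c =
      (((p : ℝ) * cyc p e 1 (b : ZMod p) (c : ZMod p) - (e : ℝ) ^ 2 : ℝ) : ℂ) := by
  have h1 : ∑ j, period A j 1 * period A j b * period A j c =
      ∑ r : (ZMod p)ˣ, ∑ q ∈ roots p e ×ˢ roots p e,
        ZMod.stdAddChar ((r : ZMod p) * (1 + (b : ZMod p) * q.1 + (c : ZMod p) * q.2)) := by
    calc ∑ j, period A j 1 * period A j b * period A j c
        = ∑ j, ∑ r ∈ (univ : Finset (ZMod p)ˣ).filter (fun r => QuotientGroup.mk r = j),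
            ZMod.stdAddChar (((1 : (ZMod p)ˣ) : ZMod p) * (r : ZMod p)) *
              (period A (QuotientGroup.mk r) b * period A (QuotientGroup.mk r) c) := by
          refine sum_congr rfl fun j _ => ?_
          rw [mul_assoc]
          nth_rewrite 1 [period]
          rw [sum_mul]
          exact sum_congr rfl fun r hr => by rw [(mem_filter.1 hr).2]
      _ = ∑ r : (ZMod p)ˣ, ZMod.stdAddChar (((1 : (ZMod p)ˣ) : ZMod p) * (r : ZMod p)) *
              (period A (QuotientGroup.mk r) b * period A (QuotientGroup.mk r) c) :=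
          sum_fiberwise _ _ _
      _ = _ := by
          refine sum_congr rfl fun r _ => ?_
          rw [period_mk, period_mk, sum_mul_sum, mul_sum, ← roots_eq_image A hA hp,
            sum_product, sum_image (fun g _ h _ hgh => Subtype.ext (Units.ext hgh))]
          refine sum_congr rfl fun g _ => ?_
          rw [mul_sum, sum_image (fun g _ h _ hgh => Subtype.ext (Units.ext hgh))]
          refine sum_congr rfl fun h _ => ?_
          rw [← AddChar.map_add_eq_mul, ← AddChar.map_add_eq_mul]
          congr 1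
          simp only [Units.val_one]
          ring
  rw [h1, sum_comm]
  have h2 : ∀ y : ZMod p, ∑ r : (ZMod p)ˣ, ZMod.stdAddChar ((r : ZMod p) * y) =
      (if y = 0 then (p : ℂ) else 0) - 1 := by
    intro y
    have h := H43.D1.sum_zmod_eq_sum_units (p := p)
      (fun r => ZMod.stdAddChar (r * y) - if r = 0 then (1 : ℂ) else 0)
      (by simp [AddChar.map_zero_eq_one])
    rw [sum_sub_distrib, sum_sub_distrib] at h
    simp only [H43.D1.sum_stdAddChar, Finset.sum_ite_eq', mem_univ, if_true, Units.ne_zero,
      if_false, sum_const_zero, sub_zero] at h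
    exact h.symm
  simp only [h2, sum_sub_distrib, sum_const, card_product, card_roots hp, nsmul_eq_mul,
    ← sum_filter]
  rw [cyc]
  push_cast
  ring

end Cfsg.Agent.H82.SmallDeg
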