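import Cfsg.Agent.H82.SmallDeg.Moments

/-!
The six cases in which the cyclotomic numbers are read off directly.
-/

set_option autoImplicit false
set_option maxRecDepth 100000

namespace Cfsg.Agent.H82.SmallDeg

theorem prime_29 : Fact (Nat.Prime 29) := ⟨by norm_num⟩

attribute [local instance] prime_29

theorem ne_29 : (1 : ZMod 29) ≠ 0 ∧ (1 : ZMod 29) ≠ 0 ∧ (8 : ZMod 29) ≠ 0 := by
  decide +kernel

theorem cyc_29 :
    cyc 29 7 1 1 1 = 0 ∧ cyc 29 7 1 1 8 = 3 := by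
  constructor <;> decide +kernel

theorem prime_37 : Fact (Nat.Prime 37) := ⟨by norm_num⟩

attribute [local instance] prime_37

theorem ne_37 : (1 : ZMod 37) ≠ 0 ∧ (5 : ZMod 37) ≠ 0 ∧ (2 : ZMod 37) ≠ 0 := by
  decide +kernel

theorem cyc_37 :
    cyc 37 9 1 1 5 = 1 ∧ cyc 37 9 1 1 2 = 4 := by
  constructor <;> decide +kernel

theorem prime_53 : Fact (Nat.Prime 53) := ⟨by norm_num⟩

attribute [local instance] prime_53

theorem ne_53 : (1 : ZMod 53) ≠ 0 ∧ (2 : ZMod 53) ≠ 0 ∧ (1 : ZMod 53) ≠ 0 := by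
  decide +kernel

theorem cyc_53 :
    cyc 53 13 1 1 2 = 2 ∧ cyc 53 13 1 1 1 = 6 := by
  constructor <;> decide +kernel

theorem prime_61 : Fact (Nat.Prime 61) := ⟨by norm_num⟩

attribute [local instance] prime_61

theorem ne_61 : (1 : ZMod 61) ≠ 0 ∧ (1 : ZMod 61) ≠ 0 ∧ (2 : ZMod 61) ≠ 0 := by
  decide +kernel

theorem cyc_61 :
    cyc 61 15 1 1 1 = 2 ∧ cyc 61 15 1 1 2 = 6 := by
  constructor <;> decide +kernel

theorem prime_67 : Fact (Nat.Prime 67) := ⟨by norm_num⟩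

attribute [local instance] prime_67

theorem ne_67 : (1 : ZMod 67) ≠ 0 ∧ (1 : ZMod 67) ≠ 0 ∧ (2 : ZMod 67) ≠ 0 := by
  decide +kernel

theorem cyc_67 :
    cyc 67 11 1 1 1 = 0 ∧ cyc 67 11 1 1 2 = 4 := by
  constructor <;> decide +kernel

theorem prime_79 : Fact (Nat.Prime 79) := ⟨by norm_num⟩

attribute [local instance] prime_79

theorem ne_79 : (1 : ZMod 79) ≠ 0 ∧ (1 : ZMod 79) ≠ 0 ∧ (4 : ZMod 79) ≠ 0 := by
  decide +kernel

theorem cyc_79 :
    cyc 79 13 1 1 1 = 0 ∧ cyc 79 13 1 1 4 = 4 := by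
  constructor <;> decide +kernel

end Cfsg.Agent.H82.SmallDeg
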